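import Mathlib

/-!
# Five-dimensional representations in characteristic two whose involutions have rank two
-/

set_option autoImplicit false

namespace Cfsg.Lib.Five.Bd

open Module

section Lin

variable {F V : Type*} [Field F] [AddCommGroup V] [Module F V] [FiniteDimensional F V]

theorem eq_sup_span {A B : Submodule F V} (hAB : A ≤ B) (hd : finrank F B ≤ finrank F A + 1)
    {w : V} (hw : w ∈ B) (hwA : w ∉ A) {v : V} (hv : v ∈ B) : ∃ l ∈ A, ∃ a : F, v = l + a • w := by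
  have h1 : A < A ⊔ Submodule.span F {w} := lt_of_le_of_ne le_sup_left fun h =>
    hwA (h ▸ Submodule.mem_sup_right (Submodule.mem_span_singleton_self w))
  have h2 : A ⊔ Submodule.span F {w} ≤ B := sup_le hAB ((Submodule.span_singleton_le_iff_mem _ _).2 hw)
  have h3 := Submodule.finrank_lt_finrank_of_lt h1
  rw [← Submodule.eq_of_le_of_finrank_le h2 (by omega)] at hv
  obtain ⟨l, hl, z, hz, rfl⟩ := Submodule.mem_sup.1 hv
  obtain ⟨a, rfl⟩ := Submodule.mem_span_singleton.1 hz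
  exact ⟨l, hl, a, rfl⟩

/-- A nilpotent operator kills a section of dimension at most one. -/
theorem nil_step {N : End F V} (hN : IsNilpotent N) {A B : Submodule F V} (hAB : A ≤ B)
    (hd : finrank F B ≤ finrank F A + 1) (hA : ∀ v ∈ A, N v ∈ A) (hB : ∀ v ∈ B, N v ∈ B) :
    ∀ v ∈ B, N v ∈ A := by
  intro w hw
  by_cases hwA : w ∈ A
  · exact hA w hwA
  obtain ⟨l, hl, a, e⟩ := eq_sup_span hAB hd hw hwA (hB w hw)
  have key : ∀ k : ℕ, (N ^ k) w - a ^ k • w ∈ A := by
    intro k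
    induction k with
    | zero => simp
    | succ k ih =>
      have : (N ^ (k + 1)) w - a ^ (k + 1) • w = N ((N ^ k) w - a ^ k • w) + a ^ k • l := by
        rw [pow_succ', End.mul_apply, map_sub, map_smul, e, pow_succ]
        module
      rw [this]
      exact add_mem (hA _ ih) (A.smul_mem _ hl)
  obtain ⟨k, hk⟩ := hN
  have h1 := key k
  rw [hk, LinearMap.zero_apply, zero_sub, neg_mem_iff] at h1
  have h2 : a = 0 := by
    by_contra h0
    exact hwA ((A.smul_mem_iff (pow_ne_zero k h0)).1 h1)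
  rw [e, h2, zero_smul, add_zero]
  exact hl

omit [FiniteDimensional F V] in
theorem map_lt {M : End F V} (hM : IsNilpotent M) {l : Submodule F V} (hl : l ≠ ⊥)
    (hMl : ∀ v ∈ l, M v ∈ l) : l.map M < l := by
  refine lt_of_le_of_ne (by rintro _ ⟨v, hv, rfl⟩; exact hMl v hv) fun h => hl ?_
  have key : ∀ k : ℕ, l.map (M ^ k) = l := by
    intro k
    induction k with
    | zero => simp [End.one_eq_id]
    | succ k ih => rw [pow_succ, End.mul_eq_comp, Submodule.map_comp, h, ih]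
  obtain ⟨k, hk⟩ := hM
  rw [← key k, hk, Submodule.map_zero]

/-- Commuting nilpotent operators on a plane have product zero. -/
theorem nil_plane {N M : End F V} (hN : IsNilpotent N) (hM : IsNilpotent M) (hc : N * M = M * N)
    {l : Submodule F V} (hl : finrank F l ≤ 2) (hNl : ∀ v ∈ l, N v ∈ l) (hMl : ∀ v ∈ l, M v ∈ l) :
    ∀ v ∈ l, N (M v) = 0 := by
  intro v hv
  by_cases h0 : l = ⊥
  · rw [h0, Submodule.mem_bot] at hv
    simp [hv]
  have h1 := Submodule.finrank_lt_finrank_of_lt (map_lt hM h0 hMl)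
  refine (Submodule.mem_bot F).1 (nil_step hN (A := ⊥) (B := l.map M) bot_le (by simp; omega)
    (by simp) ?_ _ ⟨v, hv, rfl⟩)
  rintro _ ⟨u, hu, rfl⟩
  exact ⟨N u, hNl u hu, by rw [← End.mul_apply, ← hc, End.mul_apply]⟩

/-- Commuting nilpotent operators on a plane are proportional. -/
theorem nil_prop {N M : End F V} (hN : IsNilpotent N) (hM : IsNilpotent M) (hc : N * M = M * N)
    {l : Submodule F V} (hl : finrank F l ≤ 2) (hNl : ∀ v ∈ l, N v ∈ l) (hMl : ∀ v ∈ l, M v ∈ l)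
    {w : V} (hw : w ∈ l) (hNw : N w ≠ 0) : ∃ c : F, ∀ v ∈ l, M v = c • N v := by
  have hNN := nil_plane hN hN rfl hl hNl hNl w hw
  have hNM := nil_plane hN hM hc hl hNl hMl w hw
  have hMN := nil_plane hM hN hc.symm hl hMl hNl w hw
  have hA : Submodule.span F {N w} ≤ l := (Submodule.span_singleton_le_iff_mem _ _).2 (hNl w hw)
  have hd : finrank F l ≤ finrank F (Submodule.span F {N w}) + 1 := by
    rw [finrank_span_singleton hNw]; exact hl
  have hwA : w ∉ Submodule.span F {N w} := fun h => by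
    obtain ⟨a, ha⟩ := Submodule.mem_span_singleton.1 h
    exact hNw (by rw [← ha, map_smul, hNN, smul_zero])
  obtain ⟨e, he, b, h1⟩ := eq_sup_span hA hd hw hwA (hMl w hw)
  obtain ⟨c, rfl⟩ := Submodule.mem_span_singleton.1 he
  rw [h1, map_add, map_smul, map_smul, hNN, smul_zero, zero_add, smul_eq_zero] at hNM
  rw [hNM.resolve_right hNw, zero_smul, add_zero] at h1
  refine ⟨c, fun v hv => ?_⟩
  obtain ⟨e, he, b', rfl⟩ := eq_sup_span hA hd hw hwA hv
  obtain ⟨a, rfl⟩ := Submodule.mem_span_singleton.1 he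
  simp only [map_add, map_smul, hNN, hMN, h1, smul_zero, zero_add, smul_comm c b']

/-- Pairwise meeting planes have a common line or lie in a three-space. -/
theorem planes {ι : Type*} (f : ι → Submodule F V) (h2 : ∀ i, finrank F (f i) = 2)
    (hm : ∀ i j, f i ⊓ f j ≠ ⊥) (hb : ∀ v, (∀ i, v ∈ f i) → v = 0) (a : ι) :
    ∃ U : Submodule F V, finrank F U ≤ 3 ∧ ∀ i, f i ≤ U := by
  by_cases h0 : ∀ i, f i ≤ f a
  · exact ⟨f a, by rw [h2]; omega, h0⟩
  push Not at h0
  obtain ⟨b, hb0⟩ := h0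
  obtain ⟨m, hm1, hm0⟩ := (Submodule.ne_bot_iff _).1 (hm a b)
  have hspan : ∀ {i : ι} {x y : V}, x ∈ f i → y ∈ f i → x ≠ 0 → y ∉ Submodule.span F {x} →
      ∀ U : Submodule F V, x ∈ U → y ∈ U → f i ≤ U := by
    intro i x y hx hy hx0 hyx U hxU hyU v hv
    obtain ⟨e, he, c, rfl⟩ := eq_sup_span ((Submodule.span_singleton_le_iff_mem _ _).2 hx)
      (by rw [finrank_span_singleton hx0, h2]) hy hyx hv
    exact add_mem ((Submodule.span_singleton_le_iff_mem _ _).2 hxU he) (U.smul_mem _ hyU)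
  have hab : ∀ y ∈ f a ⊓ f b, y ∈ Submodule.span F {m} := fun y hy => by
    by_contra h
    exact hb0 (hspan hm1.2 hy.2 hm0 h _ hm1.1 hy.1)
  have hrev : ∀ {x y : V}, y ≠ 0 → y ∈ Submodule.span F {x} → ∀ U : Submodule F V, y ∈ U → x ∈ U := by
    intro x y hy0 hy U hU
    obtain ⟨c, rfl⟩ := Submodule.mem_span_singleton.1 hy
    exact (U.smul_mem_iff (left_ne_zero_of_smul hy0)).1 hU
  have hU : finrank F ↥(f a ⊔ f b) ≤ 3 := by
    have h1 := Submodule.finrank_sup_add_finrank_inf_eq (f a) (f b)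
    have h3 : finrank F ↥(f a ⊓ f b) ≠ 0 := fun h => hm a b (Submodule.finrank_eq_zero.1 h)
    rw [h2, h2] at h1
    omega
  have hout : ∀ c, m ∉ f c → f c ≤ f a ⊔ f b := by
    intro c hc
    obtain ⟨x, hx, hx0⟩ := (Submodule.ne_bot_iff _).1 (hm c a)
    obtain ⟨y, hy, hy0⟩ := (Submodule.ne_bot_iff _).1 (hm c b)
    refine hspan hx.1 hy.1 hx0 (fun h => hc ?_) _ (Submodule.mem_sup_left hx.2)
      (Submodule.mem_sup_right hy.2)
    exact hrev hy0 (hab y ⟨(Submodule.span_singleton_le_iff_mem _ _).2 hx.2 h, hy.2⟩) _ hy.1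
  refine ⟨_, hU, fun d => ?_⟩
  by_cases hd : m ∈ f d
  · obtain ⟨c, hc⟩ : ∃ c, m ∉ f c := by
      by_contra h
      push Not at h
      exact hm0 (hb m h)
    obtain ⟨x, hx, hx0⟩ := (Submodule.ne_bot_iff _).1 (hm d c)
    exact hspan hd hx.1 hm0 (fun h => hc (hrev hx0 h _ hx.2)) _ (Submodule.mem_sup_left hm1.1)
      (hout c hc hx.2)
  · exact hout d hd

end Lin

variable {F V H : Type*} [Field F] [AddCommGroup V] [Module F V] [Group H]

/-- The operator `g - 1`. -/
def X (ρ : H →* End F V) (g : H) : End F V := ρ g - 1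

/-- Characteristic two, dimension five, involutions of rank two. -/
structure Rp (ρ : H →* End F V) : Prop where
  two : (2 : F) = 0
  dim : finrank F V = 5
  rk : ∀ x, x * x = 1 → x ≠ 1 → finrank F (LinearMap.range (X ρ x)) = 2

variable {ρ : H →* End F V}

theorem X_apply (g : H) (v : V) : X ρ g v = ρ g v - v := rfl

theorem ρ_eq (g : H) (v : V) : ρ g v = v + X ρ g v := by rw [X_apply]; abel

theorem X_one : X ρ 1 = 0 := by simp [X]

theorem X_mul (g h : H) : X ρ (g * h) = X ρ g + X ρ h + X ρ g * X ρ h := by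
  simp only [X, map_mul]; noncomm_ring

theorem X_conj (g h : H) : ρ g * X ρ h = X ρ (g * h * g⁻¹) * ρ g := by
  simp only [X, mul_sub, sub_mul, ← map_mul, inv_mul_cancel_right, mul_one, one_mul]

theorem X_conj_apply (g h : H) (v : V) : ρ g (X ρ h v) = X ρ (g * h * g⁻¹) (ρ g v) :=
  LinearMap.congr_fun (X_conj g h) v

theorem ρ_X_comm {g h : H} (e : g * h = h * g) (v : V) : ρ g (X ρ h v) = X ρ h (ρ g v) := by
  rw [X_conj_apply, e, mul_inv_cancel_right]

theorem X_comm {g h : H} (e : g * h = h * g) : X ρ g * X ρ h = X ρ h * X ρ g := by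
  have := congrArg (X ρ) e
  rw [X_mul, X_mul, add_comm (X ρ g)] at this
  exact add_left_cancel this

theorem ρ_mul_apply (g h : H) (v : V) : ρ (g * h) v = ρ g (ρ h v) := by rw [map_mul]; rfl

theorem ρ_inv_apply (g : H) (v : V) : ρ g⁻¹ (ρ g v) = v := by
  rw [← ρ_mul_apply, inv_mul_cancel, map_one]; rfl

theorem ρ_apply_inv (g : H) (v : V) : ρ g (ρ g⁻¹ v) = v := by
  rw [← ρ_mul_apply, mul_inv_cancel, map_one]; rfl

theorem ρ_inj (g : H) : Function.Injective (ρ g) := Function.LeftInverse.injective (ρ_inv_apply g)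

theorem X_inv_apply (g : H) (v : V) : X ρ g⁻¹ v = -ρ g⁻¹ (X ρ g v) := by
  rw [X_apply, X_apply, map_sub, ρ_inv_apply, neg_sub]

theorem range_conj (g : H) {h : H} {v : V} (hv : v ∈ LinearMap.range (X ρ h)) :
    ρ g v ∈ LinearMap.range (X ρ (g * h * g⁻¹)) := by
  obtain ⟨u, rfl⟩ := hv
  exact ⟨_, (X_conj_apply g h u).symm⟩

theorem X_mem_range {g h : H} (e : g * h = h * g) {v : V} (hv : v ∈ LinearMap.range (X ρ h)) :
    X ρ g v ∈ LinearMap.range (X ρ h) := by
  obtain ⟨u, rfl⟩ := hv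
  exact ⟨X ρ g u, by rw [← End.mul_apply, ← X_comm e, End.mul_apply]⟩

namespace Rp

variable (R : Rp ρ)
include R

theorem fd : FiniteDimensional F V := FiniteDimensional.of_finrank_pos (by rw [R.dim]; omega)

theorem add_self {W : Type*} [AddCommGroup W] [Module F W] (v : W) : v + v = 0 := by
  rw [← two_smul F, R.two, zero_smul]

theorem X_sq (g : H) : X ρ (g * g) = X ρ g * X ρ g := by rw [X_mul, R.add_self, zero_add]

theorem X_pow (g : H) (k : ℕ) : X ρ (g ^ 2 ^ k) = X ρ g ^ 2 ^ k := by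
  induction k with
  | zero => simp
  | succ k ih => rw [pow_succ, pow_mul, pow_mul, pow_two, pow_two, R.X_sq, ih]

theorem nil {g : H} {k : ℕ} (h : g ^ 2 ^ k = 1) : IsNilpotent (X ρ g) :=
  ⟨2 ^ k, by rw [← R.X_pow, h, X_one]⟩

theorem X_X {g : H} (h : g * g = 1) : X ρ g * X ρ g = 0 := by rw [← R.X_sq, h, X_one]

theorem nil' {g : H} (h : g * g = 1) : IsNilpotent (X ρ g) := ⟨2, by rw [pow_two, R.X_X h]⟩

theorem ker {x : H} (h : x * x = 1) (h1 : x ≠ 1) : finrank F (LinearMap.ker (X ρ x)) = 3 := by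
  have := R.fd
  have h2 := LinearMap.finrank_range_add_finrank_ker (X ρ x)
  rw [R.rk x h h1, R.dim] at h2
  omega

theorem rk_le {x : H} (h : x * x = 1) : finrank F (LinearMap.range (X ρ x)) ≤ 2 := by
  by_cases h1 : x = 1
  · rw [h1, X_one, LinearMap.range_zero]; simp
  · exact (R.rk x h h1).le

/-- Triple products vanish. -/
theorem triple {x y z : H} {k m : ℕ} (hx : x * x = 1) (hy : y ^ 2 ^ k = 1) (hz : z ^ 2 ^ m = 1)
    (hyx : y * x = x * y) (hzx : z * x = x * z) (hyz : y * z = z * y) :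
    X ρ y * X ρ z * X ρ x = 0 := by
  have := R.fd
  ext v
  exact nil_plane (R.nil hy) (R.nil hz) (X_comm hyz) (R.rk_le hx) (fun _ => X_mem_range hyx)
    (fun _ => X_mem_range hzx) _ ⟨v, rfl⟩

/-- An elementary abelian group of order eight normalized by an element fixing one involution and
permuting three others cyclically. -/
theorem no_frame {z a b c : H} (hz : z * z = 1) (ha : a * a = 1) (hb : b * b = 1)
    (hza : z * a = a * z) (hzb : z * b = b * z) (hba : b * a = a * b) (cz : c * z * c⁻¹ = z)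
    (ca : c * a * c⁻¹ = b) (cb : c * b * c⁻¹ = a * b) (h1 : X ρ b * X ρ a ≠ 0) :
    X ρ z * X ρ (a * b) = 0 := by
  have := R.fd
  have p : ∀ {g : H}, g * g = 1 → g ^ 2 ^ 1 = 1 := fun h => by rwa [pow_one, pow_two]
  obtain ⟨w, hw⟩ : ∃ w, X ρ b (X ρ a w) ≠ 0 := by
    by_contra h
    push Not at h
    exact h1 (LinearMap.ext h)
  obtain ⟨t, ht⟩ := nil_prop (R.nil' hb) (R.nil' hz) (X_comm hzb.symm) (R.rk_le ha)
    (fun _ => X_mem_range hba) (fun _ => X_mem_range hza) ⟨w, rfl⟩ hw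
  have e1 : X ρ z * X ρ a = t • (X ρ b * X ρ a) := LinearMap.ext fun v => ht _ ⟨v, rfl⟩
  have e2 : X ρ (a * b) * X ρ b = X ρ b * X ρ a := by
    rw [X_mul, add_mul, add_mul, mul_assoc, R.X_X hb, mul_zero, add_zero, add_zero, X_comm hba]
  have e3 : ρ c * (X ρ b * X ρ a) = X ρ b * X ρ a * ρ c := by
    rw [← mul_assoc, X_conj, mul_assoc, X_conj, cb, ca, ← mul_assoc, e2]
  have e4 : ρ c * (X ρ z * X ρ a) = X ρ z * X ρ b * ρ c := by
    rw [← mul_assoc, X_conj, mul_assoc, X_conj, cz, ca, ← mul_assoc]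
  rw [e1, mul_smul_comm, e3, ← smul_mul_assoc, ← e1] at e4
  have e5 : X ρ z * X ρ a = X ρ z * X ρ b := by
    have := congrArg (· * ρ c⁻¹) e4
    simpa only [mul_assoc, ← map_mul, mul_inv_cancel, map_one, mul_one] using this
  rw [X_mul, mul_add, mul_add, e5, R.add_self, zero_add, ← mul_assoc]
  exact R.triple hb (p hz) (p ha) hzb hba.symm hza

end Rp

/-- The elements commuting with `x` and stabilizing the flag of `x`. -/
def NN (ρ : H →* End F V) (x : H) : Subgroup H where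
  carrier := {g | g * x = x * g ∧ (∀ v ∈ LinearMap.range (X ρ x), X ρ g v = 0) ∧
    ∀ v ∈ LinearMap.ker (X ρ x), X ρ g v ∈ LinearMap.range (X ρ x)}
  one_mem' := ⟨by simp, by simp [X_one], by simp [X_one]⟩
  mul_mem' := by
    rintro g h ⟨g1, g2, g3⟩ ⟨h1, h2, h3⟩
    refine ⟨by rw [mul_assoc, h1, ← mul_assoc, g1, mul_assoc], fun v hv => ?_, fun v hv => ?_⟩
    · simp [X_mul, g2 v hv, h2 v hv]
    · rw [X_mul, LinearMap.add_apply, LinearMap.add_apply, End.mul_apply, g2 _ (h3 v hv), add_zero]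
      exact add_mem (g3 v hv) (h3 v hv)
  inv_mem' := by
    rintro g ⟨g1, g2, g3⟩
    have g1' : g⁻¹ * x = x * g⁻¹ := (Commute.inv_left g1 :)
    refine ⟨g1', fun v hv => by rw [X_inv_apply, g2 v hv, map_zero, neg_zero], fun v hv => ?_⟩
    have := range_conj (ρ := ρ) g⁻¹ (g3 v hv)
    rw [g1', mul_inv_cancel_right] at this
    rw [X_inv_apply]
    exact neg_mem this

theorem NN_conj {x g h : H} (hg : g ∈ NN ρ x) (hh : h * x = x * h) : h * g * h⁻¹ ∈ NN ρ x := by
  obtain ⟨g1, g2, g3⟩ := hg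
  have hh' : h⁻¹ * x = x * h⁻¹ := (Commute.inv_left hh :)
  have hr : ∀ {k : H}, k * x = x * k → ∀ {v}, v ∈ LinearMap.range (X ρ x) →
      ρ k v ∈ LinearMap.range (X ρ x) := fun {k} hk {v} hv => by
    have := range_conj (ρ := ρ) k hv
    rwa [hk, mul_inv_cancel_right] at this
  refine ⟨((Commute.mul_left hh g1).mul_left hh' :), fun v hv => ?_, fun v hv => ?_⟩
  · rw [← ρ_apply_inv (ρ := ρ) h v, ← X_conj_apply, g2 _ (hr hh' hv), map_zero]
  · rw [← ρ_apply_inv (ρ := ρ) h v, ← X_conj_apply]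
    refine hr hh (g3 _ ?_)
    rw [LinearMap.mem_ker, ← ρ_X_comm hh', LinearMap.mem_ker.1 hv, map_zero]

theorem Rp.pow_four (R : Rp ρ) {x g : H} (hg : g ∈ NN ρ x) : ρ (g ^ 4) = 1 := by
  obtain ⟨g1, g2, g3⟩ := hg
  have h1 := R.X_pow g 2
  have h2 : X ρ g ^ 2 ^ 2 = 0 := by
    ext v
    have : X ρ g v ∈ LinearMap.ker (X ρ x) := by
      rw [LinearMap.mem_ker, ← End.mul_apply, ← X_comm g1, End.mul_apply, g2 _ ⟨v, rfl⟩]
    simp [pow_succ, g2 _ (g3 _ this)]
  rw [h2] at h1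
  exact sub_eq_zero.1 h1

theorem Rp.mem_NN (R : Rp ρ) {x y : H} (hx : x * x = 1) (hx1 : x ≠ 1) (hy : y * y = 1)
    (hc : y * x = x * y) (h : X ρ y * X ρ x = 0) : y ∈ NN ρ x := by
  have := R.fd
  refine ⟨hc, ?_, nil_step (R.nil' hy) ?_ (by rw [R.ker hx hx1, R.rk x hx hx1])
    (fun _ => X_mem_range hc) fun v hv => ?_⟩
  · rintro _ ⟨v, rfl⟩
    exact LinearMap.congr_fun h v
  · rintro _ ⟨v, rfl⟩
    exact LinearMap.congr_fun (R.X_X hx) v
  · rw [LinearMap.mem_ker, ← End.mul_apply, ← X_comm hc, End.mul_apply, LinearMap.mem_ker.1 hv,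
      map_zero]

end Cfsg.Lib.Five.Bd
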