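import Cfsg.Agent.Class.Five.BendLin
import Cfsg.Agent.Chev.RankOneK
import Cfsg.Agent.Perm.PermModule

/-!
# Rank one groups of unitary type have no five-dimensional representation in characteristic two
-/

set_option autoImplicit false

namespace Cfsg.Lib.Five.Bd

open Module MulAction Cfsg.Lib.Chev.RankOne

variable {F V G Ω : Type*} [Field F] [AddCommGroup V] [Module F V] [Group G] [MulAction G Ω]
  {ρ : G →* End F V} {a : Ω} {t : G} {Q : Subgroup G}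

/-- Irreducibility. -/
def Ir (ρ : G →* End F V) : Prop :=
  ∀ W : Submodule F V, (∀ g, ∀ v ∈ W, ρ g v ∈ W) → W = ⊥ ∨ W = ⊤

theorem Ir.core (hI : Ir ρ) (U : Submodule F V) {v : V} (hv : ∀ g, ρ g v ∈ U) : v = 0 ∨ U = ⊤ := by
  refine (hI (⨅ g, U.comap (ρ g)) fun g w hw => ?_).imp (fun h => ?_) fun h => ?_
  · simp only [Submodule.mem_iInf, Submodule.mem_comap] at hw ⊢
    exact fun k => by rw [← ρ_mul_apply]; exact hw _
  · exact (Submodule.mem_bot F).1 (h ▸ (Submodule.mem_iInf _).2 hv)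
  · refine eq_top_iff.2 fun w _ => ?_
    simpa using (Submodule.mem_iInf _).1 (h.ge (Submodule.mem_top (x := w))) 1

theorem X_dual (g : G) : X (Representation.dual ρ) g = (X ρ g⁻¹).dualMap := by
  ext f v
  simp [X, Representation.dual]

theorem Rp.dual (R : Rp ρ) : Rp (Representation.dual ρ) where
  two := R.two
  dim := by rw [Subspace.dual_finrank_eq, R.dim]
  rk x hx h1 := by
    rw [X_dual, LinearMap.finrank_range_dualMap_eq_finrank_range, inv_eq_self hx, R.rk x hx h1]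

theorem Ir.dual [FiniteDimensional F V] (hI : Ir ρ) : Ir (Representation.dual ρ) := fun W hW => by
  refine (hI W.dualCoannihilator fun g v hv => ?_).symm.imp (fun h => ?_) fun h => ?_
  · rw [Submodule.mem_dualCoannihilator] at hv ⊢
    intro φ hφ
    simpa [Representation.dual] using hv _ (hW g⁻¹ φ hφ)
  · rw [← Subspace.dualCoannihilator_dualAnnihilator_eq (W := W), h, Submodule.dualAnnihilator_top]
  · rw [← Subspace.dualCoannihilator_dualAnnihilator_eq (W := W), h, Submodule.dualAnnihilator_bot]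

theorem tr_eq {A : Submodule F V} (hA : ∀ h : G, h • a = a → ∀ v ∈ A, ρ h v ∈ A) {g g' : G}
    (e : g • a = g' • a) {v : V} (hv : v ∈ A) : ∃ v' ∈ A, ρ g v = ρ g' v' :=
  ⟨_, hA (g'⁻¹ * g) (by rw [mul_smul, e, inv_smul_smul]) v hv, by
    rw [← ρ_mul_apply, mul_inv_cancel_left]⟩

theorem exists_four {s : G} {k : ℕ} (hs : s ∈ Q) (hk : s ^ 2 ^ k = 1) (h : s * s ≠ 1) :
    ∃ r ∈ Q, r * r ≠ 1 ∧ r * r * (r * r) = 1 := by
  induction k generalizing s with
  | zero => exact absurd (by rw [pow_zero, pow_one] at hk; rw [hk, mul_one]) h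
  | succ k ih =>
    by_cases h4 : s * s * (s * s) = 1
    · exact ⟨s, hs, h, h4⟩
    · exact ih (mul_mem hs hs) (by rw [← pow_two, ← pow_mul, ← pow_succ', hk]) h4

theorem Rp.cube (R : Rp ρ) {s : G} (h1 : s * s ≠ 1) (h4 : s * s * (s * s) = 1) :
    ¬ ∀ v ∈ LinearMap.range (X ρ (s * s)), X ρ s v = 0 := fun h => by
  have := R.fd
  have h2 := R.rk _ h4 h1
  have h3 := Submodule.finrank_mono (show LinearMap.range (X ρ (s * s)) ≤ LinearMap.ker (X ρ s) from h)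
  have h5 := LinearMap.finrank_range_add_finrank_ker (X ρ s)
  rw [R.dim] at h5
  have h6 : LinearMap.range (X ρ (s * s)) ≤ LinearMap.range (X ρ s) := by
    rintro _ ⟨v, rfl⟩
    exact ⟨_, by rw [R.X_sq, End.mul_apply]⟩
  obtain ⟨w, hw⟩ : ∃ w, LinearMap.range (X ρ (s * s)) ≤ Submodule.span F {w} := by
    by_cases h0 : LinearMap.range (X ρ s) ≤ LinearMap.range (X ρ (s * s))
    · refine ⟨0, ?_⟩
      rintro _ ⟨v, rfl⟩
      rw [R.X_sq, End.mul_apply, h _ (h0 ⟨v, rfl⟩)]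
      exact zero_mem _
    · obtain ⟨w, hw, hw'⟩ := SetLike.not_le_iff_exists.1 h0
      refine ⟨X ρ s w, ?_⟩
      rintro _ ⟨v, rfl⟩
      obtain ⟨l, hl, c, e⟩ := eq_sup_span h6 (by omega) hw hw' ⟨v, rfl⟩
      rw [R.X_sq, End.mul_apply, e, map_add, h l hl, zero_add, map_smul]
      exact Submodule.smul_mem _ _ (Submodule.mem_span_singleton_self _)
  have h7 := (Submodule.finrank_mono hw).trans (finrank_span_le_card ({w} : Set V))
  simp at h7
  omega

variable [Finite G]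

theorem II_central (hS : IsRankOneSetup G Ω a t Q) (hQ : IsPGroup 2 Q) {x u : G} (hx : x ∈ II G a)
    (hu : u ∈ Q) : u * x = x * u := by
  have : Fact (Nat.Prime 2) := ⟨Nat.prime_two⟩
  have : Nontrivial Q := ⟨⟨x, II_Q hS hx⟩, 1, fun h => (mem_II.1 hx).2.1 (congrArg Subtype.val h)⟩
  have := hQ.center_nontrivial
  obtain ⟨n, hn, hc⟩ := (hQ.to_subgroup (Subgroup.center Q)).nontrivial_iff_card.1 inferInstance
  obtain ⟨z, hz⟩ := exists_prime_orderOf_dvd_card' (G := Subgroup.center Q) 2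
    (hc ▸ dvd_pow_self 2 hn.ne')
  have hz2 : (z.1.1 : G) ∈ II G a := mem_II.2 ⟨Q_fix hS z.1.2, fun h => by
    rw [show z = 1 from Subtype.ext (Subtype.ext h), orderOf_one] at hz
    omega, by
    have := pow_orderOf_eq_one z
    rw [hz, pow_two] at this
    exact congrArg (fun w : Subgroup.center Q => (w.1.1 : G)) this⟩
  obtain ⟨k, hk, rfl⟩ := KK_trans hS hz2 hx
  have h1 : k * u * k⁻¹ * z.1.1 = z.1.1 * (k * u * k⁻¹) := congrArg Subtype.val
    (Subgroup.mem_center_iff.1 z.2 ⟨_, hS.conj_mem k hk.1.1 u hu⟩)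
  calc u * (k⁻¹ * z.1.1 * k) = k⁻¹ * (k * u * k⁻¹ * z.1.1) * k := by group
    _ = _ := by rw [h1]; group

theorem Rp.XX (R : Rp ρ) (hS : IsRankOneSetup G Ω a t Q) (hQ : IsPGroup 2 Q) {s x y : G}
    (hs : s ∈ Q) (hs2 : s * s ∈ II G a) (hx : x ∈ II G a) (hy : y ∈ II G a) :
    X ρ y * X ρ x = 0 := by
  obtain ⟨k, hk, rfl⟩ := KK_trans hS hs2 hy
  have hr := conj_mem' hS (mem_DD.1 hk.1).1 hs
  have e : k⁻¹ * (s * s) * k = k⁻¹ * s * k * (k⁻¹ * s * k) := by group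
  have h4 : (k⁻¹ * s * k) ^ 2 ^ 2 = 1 := by
    have := (mem_II.1 hy).2.2
    rw [e] at this
    rw [← this, pow_two, pow_mul, pow_two, pow_two]
  rw [e, R.X_sq]
  exact R.triple (mem_II.1 hx).2.2 h4 h4 (II_central hS hQ hx hr) (II_central hS hQ hx hr) rfl

omit [Finite G] in
theorem Rp.meet (R : Rp ρ) (hI : Ir ρ) (hS : IsRankOneSetup G Ω a t Q) {l : Submodule F V}
    (h2 : finrank F l = 2) (hl : ∀ h : G, h • a = a → ∀ v ∈ l, ρ h v ∈ l) {g : G} (hg : g • a ≠ a)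
    {v : V} (hv : v ∈ l) (hv' : ρ g v ∈ l) : v = 0 := by
  have := R.fd
  by_contra h0
  have hne : ∀ U : Submodule F V, finrank F U ≤ 3 → U ≠ ⊤ := fun U hU h => by
    rw [h, finrank_top, R.dim] at hU
    omega
  obtain ⟨U, hU, hle⟩ := planes (fun g : G => l.map (ρ g))
    (fun k => (Submodule.equivMapOfInjective _ (ρ_inj k) l).finrank_eq.symm.trans h2)
    (fun k k' => by
      by_cases e : k • a = k' • a
      · obtain ⟨v', h1, h3⟩ := tr_eq hl e hv
        exact (Submodule.ne_bot_iff _).2 ⟨ρ k v, ⟨⟨v, hv, rfl⟩, v', h1, h3.symm⟩,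
          fun h => h0 (ρ_inj k (h.trans (map_zero _).symm))⟩
      · obtain ⟨m, m1, m2⟩ := two_trans hS hg e
        obtain ⟨v', h1, h3⟩ := tr_eq hl ((mul_smul m g a).trans m1) hv
        obtain ⟨w', h4, h5⟩ := tr_eq hl m2 hv'
        exact (Submodule.ne_bot_iff _).2 ⟨ρ (m * g) v, ⟨⟨v', h1, h3.symm⟩, w', h4,
          h5.symm.trans (ρ_mul_apply _ _ _).symm⟩,
          fun h => h0 (ρ_inj (m * g) (h.trans (map_zero _).symm))⟩)
    (fun w hw => (hI.core l fun k => by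
      obtain ⟨u, hu, rfl⟩ := hw k⁻¹
      rwa [ρ_apply_inv]).resolve_right (hne l (by omega))) 1
  exact (hI.core U fun k => hle k ⟨v, hv, rfl⟩).elim h0 (hne U hU)

theorem Rp.coreA (R : Rp ρ) (hI : Ir ρ) (hS : IsRankOneSetup G Ω a t Q) (hQ : IsPGroup 2 Q)
    {s x y : G} (hs : s ∈ Q) (hs2 : s * s ∈ II G a) (hx : x ∈ II G a) (hy : y * y = 1)
    (hxy : x * y * x = y * x * y) (hne : x ≠ y)
    (hl : ∀ x' ∈ II G a, LinearMap.range (X ρ x') = LinearMap.range (X ρ x)) : False := by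
  have := R.fd
  have : Fact (Nat.Prime 2) := ⟨Nat.prime_two⟩
  have : CharP F 2 := (CharP.charP_iff_prime_eq_zero Nat.prime_two).2 (by simpa using R.two)
  obtain ⟨hxa, hx1, hx2⟩ := mem_II.1 hx
  set l := LinearMap.range (X ρ x) with hl0
  have h2 : finrank F l = 2 := R.rk x hx2 hx1
  have hst : ∀ h : G, h • a = a → ∀ v ∈ l, ρ h v ∈ l := fun h hh v hv =>
    hl _ (II_conj hx hh) ▸ range_conj h hv
  let p : Submodule F V := l ⊓ ⨅ u : Q, LinearMap.ker (X ρ u)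
  have hp : ∀ {v}, v ∈ p ↔ v ∈ l ∧ ∀ u ∈ Q, X ρ u v = 0 := by
    simp [p, Submodule.mem_iInf]
  have hpst : ∀ h : G, h • a = a → ∀ v ∈ p, ρ h v ∈ p := fun h hh v hv => by
    refine hp.2 ⟨hst h hh v (hp.1 hv).1, fun u hu => ?_⟩
    have := X_conj_apply (ρ := ρ) h (h⁻¹ * u * h) v
    rw [(hp.1 hv).2 _ (conj_mem' hS hh hu), map_zero] at this
    rw [this]
    congr 2
    group
  obtain ⟨v₀, hv₀, hv0, hfix⟩ := Cfsg.Lib.Perm.exists_fixed_vector_of_isPGroup hQ (ρ.comp Q.subtype) l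
    (fun u => hst _ (Q_fix hS u.2)) fun h => by rw [h, finrank_bot] at h2; omega
  have hv₀p : v₀ ∈ p := hp.2 ⟨hv₀, fun u hu => sub_eq_zero.2 (hfix ⟨u, hu⟩)⟩
  have hy1 : y ≠ 1 := fun h => hx1 (by simpa [h, hx2] using hxy.symm)
  obtain ⟨b, hb⟩ := exists_fix hS hy
  have := pretrans hS
  obtain ⟨g, rfl⟩ := exists_smul_eq G a b
  have hga : g • a ≠ a := fun h => by
    have := II_central hS hQ hx (mem_Q_of_sq hS (h ▸ hb) hy)
    rw [← this, mul_assoc, hx2, mul_one, this, mul_assoc, hy, mul_one] at hxy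
    exact hne hxy.symm
  have hy' : g⁻¹ * y * g ∈ II G a := mem_II.2 ⟨by rw [mul_smul, mul_smul, hb, inv_smul_smul],
    conj_ne_one' hy1, conj_sq_eq_one' hy⟩
  have e : (x * g) • a = y • a := by
    have i1 : x * y * x = x * y * x⁻¹ := by rw [inv_eq_self hx2]
    refine fix_unique hS (u := x * y * x) (i1 ▸ conj_ne_one hy1) (i1 ▸ conj_sq_eq_one hy) ?_ ?_
    · rw [← mul_smul, ← mul_assoc, mul_assoc (x * y) x, hx2, mul_one, mul_smul, mul_smul, hb,
        mul_smul]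
    · rw [hxy, ← mul_smul, mul_assoc _ y, hy, mul_one, mul_smul, hxa]
  have key : ∀ v ∈ p, X ρ x (ρ g v) ∈ p := fun v hv => by
    obtain ⟨v', h1, h3⟩ := tr_eq hpst e hv
    have h4 : X ρ y v' = ρ g (X ρ (g⁻¹ * y * g) (ρ g⁻¹ v')) := by
      rw [X_conj_apply, ρ_apply_inv]
      congr 2
      group
    rw [ρ_mul_apply, ρ_eq x, ρ_eq y, h4] at h3
    have h5 : ρ g (v - X ρ (g⁻¹ * y * g) (ρ g⁻¹ v')) = v' - X ρ x (ρ g v) := by
      rw [map_sub, sub_eq_sub_iff_add_eq_add, h3]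
    have h6 := R.meet hI hS h2 hst hga (sub_mem (hp.1 hv).1 (hl _ hy' ▸ ⟨_, rfl⟩))
      (h5 ▸ sub_mem (hp.1 h1).1 ⟨_, rfl⟩)
    rw [h6, map_zero, eq_comm, sub_eq_zero] at h5
    exact h5 ▸ h1
  refine (hI.core (p.comap (X ρ x)) (v := v₀) fun k => ?_).elim hv0 fun h => ?_
  · rw [Submodule.mem_comap]
    by_cases hk : k • a = a
    · obtain ⟨w, hw⟩ := hst k hk _ hv₀
      rw [← hw, ← End.mul_apply, R.X_X hx2]
      exact zero_mem _
    · obtain ⟨u, hu, e'⟩ := exists_Q_smul hS hga hk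
      obtain ⟨v', h1, h3⟩ := tr_eq hpst (e'.symm.trans (mul_smul u g a).symm) hv₀p
      rw [h3, ρ_mul_apply, ← ρ_X_comm (II_central hS hQ hx hu)]
      exact hpst u (Q_fix hS hu) _ (key v' h1)
  · refine R.cube (mem_II.1 hs2).2.1 (mem_II.1 hs2).2.2 fun v hv => ?_
    rw [hl _ hs2] at hv
    obtain ⟨w, rfl⟩ := hv
    exact (hp.1 (h.ge (Submodule.mem_top (x := w)))).2 s hs

/-- The unitary case. -/
theorem Rp.no_braid (R : Rp ρ) (hI : Ir ρ) (hS : IsRankOneSetup G Ω a t Q) (hQ : IsPGroup 2 Q)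
    {s x y : G} (hs : s ∈ Q) (hs2 : s * s ≠ 1) (hx : x * x = 1) (hy : y * y = 1)
    (hxy : x * y * x = y * x * y) : x = y := by
  have := R.fd
  by_contra hne
  obtain ⟨k, hk⟩ := hQ ⟨s, hs⟩
  obtain ⟨r, hr, r1, r2⟩ := exists_four hs (congrArg Subtype.val hk) hs2
  have hr2 : r * r ∈ II G a := mem_II.2 ⟨Q_fix hS (mul_mem hr hr), r1, r2⟩
  obtain ⟨g, hg⟩ := exists_conj_mem_Q hS hx
  have hx1 : x ≠ 1 := fun h => hne (by simpa [h, hy] using hxy.symm)
  have hx' : g * x * g⁻¹ ∈ II G a := mem_II.2 ⟨Q_fix hS hg, conj_ne_one hx1, conj_sq_eq_one hx⟩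
  have hxy' : g * x * g⁻¹ * (g * y * g⁻¹) * (g * x * g⁻¹) =
      g * y * g⁻¹ * (g * x * g⁻¹) * (g * y * g⁻¹) := by
    calc _ = g * (x * y * x) * g⁻¹ := by group
      _ = _ := by rw [hxy]; group
  have hne' : g * x * g⁻¹ ≠ g * y * g⁻¹ := fun h => hne (by simpa using h)
  by_cases hl : ∀ x' ∈ II G a, LinearMap.range (X ρ x') = LinearMap.range (X ρ (g * x * g⁻¹))
  · exact R.coreA hI hS hQ hr hr2 hx' (conj_sq_eq_one hy) hxy' hne' hl
  push Not at hl
  obtain ⟨z, hz, hz'⟩ := hl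
  have hk : ∀ w ∈ II G a, LinearMap.range (X ρ z) ⊔ LinearMap.range (X ρ (g * x * g⁻¹)) =
      LinearMap.ker (X ρ w) := fun w hw => by
    have h1 : LinearMap.range (X ρ z) <
        LinearMap.range (X ρ z) ⊔ LinearMap.range (X ρ (g * x * g⁻¹)) :=
      left_lt_sup.2 fun h => hz' (Submodule.eq_of_le_of_finrank_le h (by
        rw [R.rk _ (mem_II.1 hz).2.2 (mem_II.1 hz).2.1,
          R.rk _ (mem_II.1 hx').2.2 (mem_II.1 hx').2.1])).symm
    have h2 := Submodule.finrank_lt_finrank_of_lt h1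
    rw [R.rk _ (mem_II.1 hz).2.2 (mem_II.1 hz).2.1] at h2
    refine Submodule.eq_of_le_of_finrank_le (sup_le ?_ ?_)
      (by rw [R.ker (mem_II.1 hw).2.2 (mem_II.1 hw).2.1]; omega)
    · exact LinearMap.range_le_ker_iff.2 (R.XX hS hQ hr hr2 hz hw)
    · exact LinearMap.range_le_ker_iff.2 (R.XX hS hQ hr hr2 hx' hw)
  refine R.dual.coreA hI.dual hS hQ hr hr2 hx' (conj_sq_eq_one hy) hxy' hne' fun w hw => ?_
  rw [X_dual, X_dual, LinearMap.range_dualMap_eq_dualAnnihilator_ker,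
    LinearMap.range_dualMap_eq_dualAnnihilator_ker, inv_eq_self (mem_II.1 hw).2.2,
    inv_eq_self (mem_II.1 hx').2.2, ← hk w hw, ← hk _ hx']

end Cfsg.Lib.Five.Bd
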