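import Cfsg.Agent.Trans.TransferTools
import Cfsg.Agent.Trans.IdxTwoSub
import Cfsg.Agent.Rank2.Invol
import Cfsg.Agent.CIT.Basic
import Cfsg.Agent.Local.StronglyEmb
import Cfsg.Prelude.Def_TwoFusion

/-!
# A Sylow 2-subgroup with two elementary abelian subgroups containing all involutions
-/

set_option autoImplicit false

namespace Cfsg.Lib.Five.Ev

open scoped commutatorElement

variable {G : Type*} [Group G]

theorem inv_of_sq {x : G} (h : x * x = 1) : x⁻¹ = x := inv_eq_of_mul_eq_one_right h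

theorem comm_of_sq {A : Subgroup G} (h : ∀ x ∈ A, x * x = 1) {x y : G} (hx : x ∈ A) (hy : y ∈ A) :
    x * y = y * x := by
  rw [← inv_of_sq (h _ (mul_mem hx hy)), mul_inv_rev, inv_of_sq (h _ hx), inv_of_sq (h _ hy)]

/-- The abstract configuration. -/
structure Cfg (S : Sylow 2 G) (A E : Subgroup G) (t : G) : Prop where
  AS : A ≤ S
  ES : E ≤ S
  sqA : ∀ x ∈ A, x * x = 1
  sqE : ∀ x ∈ E, x * x = 1
  ti : ∀ x ∈ A, x ≠ 1 → ∀ g, g * x * g⁻¹ ∈ A → ∀ a ∈ A, g * a * g⁻¹ ∈ A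
  nE : ∀ s ∈ (S : Subgroup G), ∀ e ∈ E, s * e * s⁻¹ ∈ E
  sq : ∀ s ∈ (S : Subgroup G), s * s ∈ A
  inv : ∀ s ∈ (S : Subgroup G), s * s = 1 → s ∈ A ∨ s ∈ E
  cE : ∀ y ∈ E, y ∉ A → ∀ s ∈ (S : Subgroup G), s * y = y * s → s ∈ E
  cA : ∀ x ∈ A, x ∉ E → ∀ s ∈ (S : Subgroup G), s * x = x * s → s ∈ A
  tA : t ∈ A
  t1 : t ≠ 1
  tZ : ∀ s ∈ (S : Subgroup G), s * t = t * s
  four : ∀ g : G, ∀ a ∈ A, ∀ a' ∈ A, a * a' ∉ E → ∀ y₁ ∈ E, ∀ y₂ ∈ E, ∀ y₃ ∈ E, ∀ y₄ ∈ E,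
    y₁ ∉ A → g⁻¹ * y₁ * g ∈ A → g⁻¹ * y₂ * g ∈ A → g⁻¹ * y₃ * g ∈ A → g⁻¹ * y₄ * g ∈ A →
    y₁ * a * y₁ * a = y₃ * a' * y₃ * a' → y₂ * a * y₂ * a = y₄ * a' * y₄ * a' →
    y₁ * a * y₁ * a ≠ 1 → y₂ * a * y₂ * a ≠ 1 → y₁ * a * y₁ * a = y₂ * a * y₂ * a

variable {S : Sylow 2 G} {A E : Subgroup G} {t : G}

namespace Cfg

theorem nA (h : Cfg S A E t) {s : G} (hs : s ∈ (S : Subgroup G)) {a : G} (ha : a ∈ A) :
    s * a * s⁻¹ ∈ A :=
  h.ti t h.tA h.t1 s (by rw [h.tZ s hs, mul_inv_cancel_right]; exact h.tA) a ha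

theorem ti' (h : Cfg S A E t) {x g : G} (hx : x ∈ A) (h1 : x ≠ 1) (hg : g * x * g⁻¹ ∈ A) {a : G}
    (ha : a ∈ A) : g⁻¹ * a * g ∈ A := by
  have := h.ti _ hg (by simpa using h1) g⁻¹ (by simpa [mul_assoc] using hx) a ha
  simpa using this

theorem mem_norm (h : Cfg S A E t) {x g : G} (hx : x ∈ A) (h1 : x ≠ 1) (hg : g * x * g⁻¹ ∈ A) :
    g ∈ Subgroup.normalizer (A : Set G) := fun a =>
  ⟨h.ti x hx h1 g hg a, fun ha => by simpa [mul_assoc] using h.ti' hx h1 hg ha⟩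

theorem S_le (h : Cfg S A E t) : (S : Subgroup G) ≤ Subgroup.normalizer (A : Set G) :=
  fun _ hs => h.mem_norm h.tA h.t1 (h.nA hs h.tA)

theorem commA (h : Cfg S A E t) {s u : G} (hs : s ∈ (S : Subgroup G)) (hu : u ∈ (S : Subgroup G)) :
    s * u * s⁻¹ * u⁻¹ ∈ A := by
  have h1 := h.sq _ (mul_mem hs hu)
  have h2 := h.nA (inv_mem hu) (h.sq _ (inv_mem hs))
  have h3 := h.sq _ (inv_mem hu)
  have := mul_mem (mul_mem h1 h2) h3
  convert this using 1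
  group

/-- The commutator of an element of `E` with an element of `S`. -/
theorem cm (h : Cfg S A E t) {e s : G} (he : e ∈ E) (hs : s ∈ (S : Subgroup G)) :
    e * s * e * s⁻¹ ∈ A ∧ e * s * e * s⁻¹ ∈ E := by
  refine ⟨?_, by simpa [mul_assoc] using mul_mem he (h.nE s hs e he)⟩
  have := h.commA (h.ES he) hs
  rwa [inv_of_sq (h.sqE e he)] at this

theorem cm_mul (h : Cfg S A E t) {e e' s : G} (he : e ∈ E) (he' : e' ∈ E)
    (k : e * s * e * s⁻¹ = e' * s * e' * s⁻¹) :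
    s * (e * e') = e * e' * s := by
  have k1 : e * s * e = e' * s * e' := mul_right_cancel k
  calc s * (e * e') = e * (e * s * e) * e' := by
        rw [← mul_assoc, ← mul_assoc, ← mul_assoc, h.sqE e he, one_mul]
    _ = e * e' * s * (e' * e') := by rw [k1]; group
    _ = e * e' * s := by rw [h.sqE e' he', mul_one]

/-- A second conjugate of `A` meeting `E`. -/
structure Two (S : Sylow 2 G) (A E : Subgroup G) (g : G) : Prop where
  nE : ∀ e ∈ E, g * e * g⁻¹ ∈ E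
  nA : ∀ z ∈ A, g * z * g⁻¹ ∈ A → z = 1

theorem exists_two [Finite G] (h : Cfg S A E t) (hA : ¬ IsStronglyClosed A S) :
    t ∈ E ∧ ∃ g, Two S A E g := by
  have : ∃ x ∈ A, ∃ g, g * x * g⁻¹ ∈ (S : Subgroup G) ∧ g * x * g⁻¹ ∉ A := by
    by_contra k
    push Not at k
    exact hA ⟨h.AS, k⟩
  obtain ⟨x, hx, g₀, hyS, hyA⟩ := this
  have hx1 : x ≠ 1 := fun k => hyA (by simp [k])
  have hyE : g₀ * x * g₀⁻¹ ∈ E := (h.inv _ hyS (by
    rw [conj_mul, h.sqA x hx]; simp)).resolve_left hyA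
  have htE : t ∈ E := h.cE _ hyE hyA t (h.AS h.tA) (h.tZ _ hyS).symm
  obtain ⟨n, hn, hnS⟩ := Local.exists_conj_le_sylow S h.S_le
    (Q := E.map (MulAut.conj g₀⁻¹).toMonoidHom) (by
      rintro _ ⟨e, he, rfl⟩
      refine h.mem_norm hx hx1 ?_
      have k := comm_of_sq h.sqE he hyE
      have : g₀⁻¹ * e * g₀⁻¹⁻¹ * x * (g₀⁻¹ * e * g₀⁻¹⁻¹)⁻¹ = x := by
        calc _ = g₀⁻¹ * (e * (g₀ * x * g₀⁻¹)) * e⁻¹ * g₀ := by group
          _ = x := by rw [k]; group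
      exact this.symm ▸ hx)
    ((S.isPGroup'.to_le h.ES).map _)
  have hS : ∀ e ∈ E, (n * g₀⁻¹) * e * (n * g₀⁻¹)⁻¹ ∈ (S : Subgroup G) := fun e he => by
    have := hnS _ ⟨e, he, rfl⟩
    simpa [mul_assoc] using this
  have hnA : ∀ z ∈ A, (n * g₀⁻¹) * z * (n * g₀⁻¹)⁻¹ ∈ A → z = 1 := fun z hz k => by
    by_contra hz1
    have := h.ti' hz hz1 k ((hn x).1 hx)
    exact hyA (by simpa [mul_assoc] using this)
  set g := n * g₀⁻¹
  have ht' : g * t * g⁻¹ ∉ A := fun k => h.t1 (hnA t h.tA k)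
  have htE' : g * t * g⁻¹ ∈ E := (h.inv _ (hS t htE) (by
    rw [conj_mul, h.sqA t h.tA]; simp)).resolve_left ht'
  exact ⟨htE, g, fun e he => h.cE _ htE' ht' _ (hS e he) (by
    rw [conj_mul, conj_mul, comm_of_sq h.sqE he htE]), hnA⟩

variable {g : G}

theorem surj [Finite G] (h : Cfg S A E t) (k : Two S A E g) {s : G} (hs : s ∈ (S : Subgroup G))
    (hsE : s ∉ E) {z : G} (hz : z ∈ A) (hzE : z ∈ E) :
    ∃ c ∈ A, c ∈ E ∧ (g * c * g⁻¹) * s * (g * c * g⁻¹) * s⁻¹ = z := by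
  let f : (A ⊓ E : Subgroup G) → (A ⊓ E : Subgroup G) := fun c =>
    ⟨(g * c * g⁻¹) * s * (g * c * g⁻¹) * s⁻¹, h.cm (k.nE c c.2.2) hs⟩
  have hf : Function.Injective f := fun c d e => by
    have e1 := h.cm_mul (k.nE c c.2.2) (k.nE d d.2.2) (congrArg Subtype.val e)
    rw [conj_mul] at e1
    have e2 : g * (c * d) * g⁻¹ ∈ A := by
      by_contra e2
      exact hsE (h.cE _ (k.nE _ (mul_mem c.2.2 d.2.2)) e2 s hs e1)
    have e3 := k.nA _ (mul_mem c.2.1 d.2.1) e2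
    exact Subtype.ext (by rw [eq_inv_of_mul_eq_one_left e3, inv_of_sq (h.sqA d d.2.1)])
  obtain ⟨c, hc⟩ := Finite.injective_iff_surjective.1 hf ⟨z, hz, hzE⟩
  exact ⟨c, c.2.1, c.2.2, congrArg Subtype.val hc⟩

/-- Every element of `E` is a product of elements of the two intersections. -/
theorem split [Finite G] (h : Cfg S A E t) (k : Two S A E g) {s : G} (hs : s ∈ (S : Subgroup G))
    (hsE : s ∉ E) {e : G} (he : e ∈ E) :
    ∃ c ∈ A, c ∈ E ∧ e * (g * c * g⁻¹) ∈ A ∧ s * (e * (g * c * g⁻¹)) = e * (g * c * g⁻¹) * s := by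
  obtain ⟨c, hc, hcE, e1⟩ := h.surj k hs hsE (h.cm he hs).1 (h.cm he hs).2
  have e2 := h.cm_mul he (k.nE c hcE) e1.symm
  refine ⟨c, hc, hcE, ?_, e2⟩
  by_contra e3
  exact hsE (h.cE _ (mul_mem he (k.nE c hcE)) e3 s hs e2)

theorem cen [Finite G] (h : Cfg S A E t) (k : Two S A E g) {s : G} (hs : s ∈ (S : Subgroup G))
    {z : G} (hz : z ∈ A) (hzE : z ∈ E) : s * z = z * s := by
  by_cases hsE : s ∈ E
  · exact comm_of_sq h.sqE hsE hzE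
  obtain ⟨c, hc, -, e1, e2⟩ := h.split k hs hsE hzE
  have : c = 1 := k.nA c hc (by simpa using mul_mem (inv_mem hz) e1)
  simpa [this] using e2

theorem commE [Finite G] (h : Cfg S A E t) (k : Two S A E g) (htE : t ∈ E) {s u : G}
    (hs : s ∈ (S : Subgroup G)) (hu : u ∈ (S : Subgroup G)) : ⁅s, u⁆ ∈ E := by
  have hy := k.nE t htE
  have hyA : g * t * g⁻¹ ∉ A := fun e => h.t1 (k.nA t h.tA e)
  generalize g * t * g⁻¹ = y at hy hyA
  have e1 : ∀ a ∈ (S : Subgroup G), ∃ z ∈ A, z ∈ E ∧ a * y = y * z * a := fun a ha =>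
    ⟨_, (h.cm hy ha).1, (h.cm hy ha).2, by
      rw [← mul_assoc y, ← mul_assoc y, ← mul_assoc y, h.sqE y hy]; group⟩
  obtain ⟨z, hz, hzE, e2⟩ := e1 _ (inv_mem hs)
  obtain ⟨w, hw, hwE, e3⟩ := e1 _ (inv_mem hu)
  have e4 : s⁻¹ * u⁻¹ * y = y * (z * w) * (s⁻¹ * u⁻¹) := by
    calc _ = s⁻¹ * y * (w * u⁻¹) := by rw [mul_assoc, e3]; group
      _ = y * z * (s⁻¹ * w) * u⁻¹ := by rw [e2]; group
      _ = _ := by rw [h.cen k (inv_mem hs) hw hwE]; group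
  have e5 : u⁻¹ * s⁻¹ * y = y * (z * w) * (u⁻¹ * s⁻¹) := by
    calc _ = u⁻¹ * y * (z * s⁻¹) := by rw [mul_assoc, e2]; group
      _ = y * w * (u⁻¹ * z) * s⁻¹ := by rw [e3]; group
      _ = y * (w * z) * (u⁻¹ * s⁻¹) := by rw [h.cen k (inv_mem hu) hz hzE]; group
      _ = _ := by rw [comm_of_sq h.sqA hw hz]
  refine h.cE y hy hyA _ (mul_mem (mul_mem (mul_mem hs hu) (inv_mem hs)) (inv_mem hu)) ?_
  calc ⁅s, u⁆ * y = s * u * (s⁻¹ * u⁻¹ * y) := by rw [commutatorElement_def]; group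
    _ = s * u * (y * (z * w) * (u⁻¹ * s⁻¹)) * ⁅s, u⁆ := by rw [e4, commutatorElement_def]; group
    _ = y * ⁅s, u⁆ := by rw [← e5]; group

theorem card_eq_two_mul {H K : Subgroup G} (hle : H ≤ K) (h : H.relIndex K = 2) :
    Nat.card K = 2 * Nat.card H := by
  rw [← (H.subgroupOf K).card_mul_index, Nat.card_congr (Subgroup.subgroupOfEquivOfLe hle).toEquiv,
    mul_comm]
  exact congrArg (· * _) h

theorem dih [Finite G] (h : Cfg S A E t) (k : Two S A E g) (htE : t ∈ E) {s : G} (hs : s ∈ A)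
    (hsE : s ∉ E) (h0 : ∀ z ∈ A, z ∈ E → z ≠ 1 → z = t) :
    Nonempty ((S : Subgroup G) ≃* DihedralGroup 4) := by
  have hy := k.nE t htE
  have hyA : g * t * g⁻¹ ∉ A := fun e => h.t1 (k.nA t h.tA e)
  have c1 : Nat.card (A ⊓ E : Subgroup G) = 2 :=
    (Nat.card_eq_two_iff' 1).2 ⟨⟨t, h.tA, htE⟩, fun e => h.t1 (congrArg Subtype.val e),
      fun z hz => Subtype.ext (h0 z z.2.1 z.2.2 fun e => hz (Subtype.ext e))⟩
  have c2 : Nat.card E = 2 * Nat.card (A ⊓ E : Subgroup G) :=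
    card_eq_two_mul inf_le_right (Subgroup.relIndex_eq_two_iff.2 ⟨_, hy, fun e he => by
      by_cases heA : e ∈ A
      · exact Or.inr ⟨⟨heA, he⟩, fun e1 => hyA (by simpa using mul_mem (inv_mem heA) e1.1)⟩
      · refine Or.inl ⟨⟨?_, mul_mem he hy⟩, fun e1 => heA e1.1⟩
        obtain ⟨c, hc, hcE, e1, -⟩ := h.split k (h.AS hs) hsE he
        rwa [h0 c hc hcE fun e2 => heA (by simpa [e2] using e1)] at e1⟩)
  set y := g * t * g⁻¹
  have e1 : ∀ a ∈ (S : Subgroup G), a ∉ E → y * a * y * a⁻¹ = t := fun a ha haE =>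
    h0 _ (h.cm hy ha).1 (h.cm hy ha).2 fun e => haE (h.cE y hy hyA a ha (by
      have := h.cm_mul hy (one_mem E) (s := a) (by simpa using e)
      simpa using this))
  have c3 : Nat.card (S : Subgroup G) = 2 * Nat.card E :=
    card_eq_two_mul h.ES (Subgroup.relIndex_eq_two_iff.2 ⟨s, h.AS hs, fun b hb => by
      by_cases hbE : b ∈ E
      · exact Or.inr ⟨hbE, fun e => hsE (by simpa using mul_mem (inv_mem hbE) e)⟩
      · refine Or.inl ⟨h.cE y hy hyA _ (mul_mem hb (h.AS hs)) ?_, hbE⟩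
        have e2 := (e1 _ (inv_mem hb) (by simpa using hbE)).trans (e1 s (h.AS hs) hsE).symm
        calc b * s * y = b * y⁻¹ * (y * s * y * s⁻¹) * s := by group
          _ = y * (b * s) := by rw [← e2]; group⟩)
  have hne : ¬ Commute (⟨s, h.AS hs⟩ : (S : Subgroup G)) ⟨y, h.ES hy⟩ := fun e =>
    hsE (h.cE y hy hyA s (h.AS hs) (congrArg Subtype.val e.eq))
  refine (Rank2.dihedral_or_quaternion_of_card_eight (by rw [c3, c2, c1]) ⟨_, _, hne⟩).resolve_right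
    fun ⟨e⟩ => hne ?_
  have q : ∀ x : (S : Subgroup G), x.1 * x.1 = 1 → x = 1 ∨ e x = QuaternionGroup.a 2 := fun x hx => by
    have : e x ^ 2 = 1 := by
      rw [← map_pow, pow_two, show x * x = 1 from Subtype.ext hx, map_one]
    exact ((Trans.quaternion_sq_eq_one_iff two_ne_zero _).1 this).imp_left fun e1 => by simpa using e1
  rcases q ⟨s, h.AS hs⟩ (h.sqA s hs) with e1 | e1
  · rw [e1]; exact Commute.one_left _
  rcases q ⟨y, h.ES hy⟩ (h.sqE y hy) with e2 | e2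
  · rw [e2]; exact Commute.one_right _
  · rw [e.injective (e1.trans e2.symm)]

theorem idx [Finite G] (h : Cfg S A E t) (k : Two S A E g) (htE : t ∈ E) {z : G} (hz : z ∈ A)
    (hzE : z ∈ E) (hz1 : z ≠ 1) (hzt : z ≠ t) {a a' : G} (ha : a ∈ A) (haE : a ∉ E) (ha' : a' ∈ A)
    (haE' : a' ∉ E) : a * a' ∈ E := by
  by_contra hn
  obtain ⟨c₁, h1, h1E, e1⟩ := h.surj k (h.AS ha) haE hz hzE
  obtain ⟨c₂, h2, h2E, e2⟩ := h.surj k (h.AS ha) haE h.tA htE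
  obtain ⟨c₃, h3, h3E, e3⟩ := h.surj k (h.AS ha') haE' hz hzE
  obtain ⟨c₄, h4, h4E, e4⟩ := h.surj k (h.AS ha') haE' h.tA htE
  rw [inv_of_sq (h.sqA a ha)] at e1 e2
  rw [inv_of_sq (h.sqA a' ha')] at e3 e4
  refine hzt ?_
  rw [← e1, ← e2]
  refine h.four g a ha a' ha' hn _ (k.nE _ h1E) _ (k.nE _ h2E) _ (k.nE _ h3E) _ (k.nE _ h4E)
    (fun e => hz1 ?_) (by simpa [mul_assoc] using h1) (by simpa [mul_assoc] using h2)
    (by simpa [mul_assoc] using h3) (by simpa [mul_assoc] using h4) (e1.trans e3.symm)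
    (e2.trans e4.symm) (e1 ▸ hz1) (e2 ▸ h.t1)
  rw [← e1, k.nA _ h1 e]
  simpa using h.sqA a ha

theorem not_le [Finite G] (h : Cfg S A E t) {s : G} (hs : s ∈ A) (hsE : s ∉ E)
    {b : G} (hb : ∀ r ∈ A, b⁻¹ * r * b ∈ E) : False := by
  have hA : ∀ r ∈ A, b⁻¹ * r * b ∈ A → r = 1 := fun r hr e => by
    by_contra h1
    have := hb _ (h.ti' hr h1 (g := b⁻¹) (by simpa using e) hs)
    exact hsE (by simpa [mul_assoc] using this)
  let f : A → (A ⊓ E : Subgroup G) := fun r =>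
    ⟨(b⁻¹ * r * b) * s * (b⁻¹ * r * b) * s⁻¹, h.cm (hb r r.2) (h.AS hs)⟩
  have hf : Function.Injective f := fun c d e => by
    have e1 := h.cm_mul (hb c c.2) (hb d d.2) (congrArg Subtype.val e)
    have e0 : b⁻¹ * c * b * (b⁻¹ * d * b) = b⁻¹ * (c * d) * b := by group
    rw [e0] at e1
    have e2 : b⁻¹ * (c * d) * b ∈ A := by
      by_contra e2
      exact hsE (h.cE _ (hb _ (mul_mem c.2 d.2)) e2 s (h.AS hs) e1)
    have e3 := hA _ (mul_mem c.2 d.2) e2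
    exact Subtype.ext (by rw [eq_inv_of_mul_eq_one_left e3, inv_of_sq (h.sqA d d.2)])
  have := Subgroup.eq_of_le_of_card_ge (inf_le_left : A ⊓ E ≤ A) (Nat.card_le_card_of_injective f hf)
  exact hsE (this.ge hs).2

theorem ord4 [Finite G] (h : Cfg S A E t) {κ s w w' : G}
    (hκ : κ ∈ Subgroup.normalizer (A : Set G)) (hs : s ∈ A) (hw : w ∈ A) (hw' : w' ∈ A)
    (hw'1 : w' ≠ 1) (k1 : κ * s * κ⁻¹ = w * s) (k2 : κ * w * κ⁻¹ = w' * w)
    (k3 : κ * w' * κ⁻¹ = w') : False := by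
  have k4 : κ ^ 2 * s = w' * s * κ ^ 2 := by
    calc _ = κ * (κ * s * κ⁻¹) * κ⁻¹ * κ ^ 2 := by simp [pow_two, mul_assoc]
      _ = κ * (w * s) * κ⁻¹ * κ ^ 2 := by rw [k1]
      _ = (κ * w * κ⁻¹) * (κ * s * κ⁻¹) * κ ^ 2 := by rw [conj_mul]
      _ = w' * (w * w) * s * κ ^ 2 := by rw [k1, k2]; group
      _ = _ := by rw [h.sqA w hw, mul_one]
  have k5 : Commute w' κ := by
    have : κ * w' = w' * κ := by rw [← mul_inv_eq_iff_eq_mul, k3]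
    exact this.symm
  have k6 : Commute (κ ^ 4) s := by
    calc κ ^ 4 * s = κ ^ 2 * (κ ^ 2 * s) := by group
      _ = κ ^ 2 * w' * s * κ ^ 2 := by rw [k4]; group
      _ = w' * (κ ^ 2 * s) * κ ^ 2 := by rw [← (k5.pow_right 2).eq]; group
      _ = w' * w' * s * κ ^ 4 := by rw [k4]; group
      _ = s * κ ^ 4 := by rw [h.sqA w' hw', one_mul]
  obtain ⟨m, j, ⟨i, rfl⟩, hm⟩ := CIT.exists_odd_pow_two_elt κ
  obtain ⟨n, hn, hnS⟩ := Local.exists_conj_le_sylow S h.S_le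
    (Q := Subgroup.zpowers (κ ^ (2 * i + 1))) (Subgroup.zpowers_le.2 (pow_mem hκ _))
    (by
      obtain ⟨l, -, hl⟩ := (Nat.dvd_prime_pow Nat.prime_two).1 (orderOf_dvd_of_pow_eq_one hm)
      exact IsPGroup.of_card (n := l) (by simp [hl]))
  have k7 := comm_of_sq h.sqA (h.sq _ (hnS _ (Subgroup.mem_zpowers _))) ((hn s).1 hs)
  rw [conj_mul, conj_mul, conj_mul, mul_left_inj, mul_right_inj, ← pow_add,
    show 2 * i + 1 + (2 * i + 1) = 4 * i + 2 by ring, pow_add, pow_mul, mul_assoc, k4, ← mul_assoc,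
    ← mul_assoc s, ← (k6.pow_left i).eq, mul_left_inj, mul_right_inj, mul_eq_right] at k7
  exact hw'1 k7

theorem transfer [Finite G] (h : Cfg S A E t) (k : Two S A E g) (htE : t ∈ E)
    (hG : commutator G = ⊤) {s : G} (hs : s ∈ A) (hsE : s ∉ E)
    (hidx : ∀ a ∈ A, a ∉ E → ∀ a' ∈ A, a' ∉ E → a * a' ∈ E) :
    ∃ b, b⁻¹ * s * b ∈ E ∧ b⁻¹ ∈ Subgroup.normalizer (A : Set G) ∧ ∃ r ∈ A, b⁻¹ * r * b ∉ E := by
  have hs1 : s ≠ 1 := fun e => hsE (by rw [e]; exact one_mem E)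
  have sq2 : ∀ u : G, orderOf u = 2 → u * u = 1 := fun u hu => by
    rw [← pow_two, ← hu, pow_orderOf_eq_one]
  have a1 : ∀ x ∈ (S : Subgroup G), ∃ n, x ^ 2 ^ n ∈ E := fun x hx => by
    obtain ⟨n, hn⟩ := S.isPGroup' ⟨x, hx⟩
    have : x ^ 2 ^ n = 1 := by simpa [Subtype.ext_iff] using hn
    exact ⟨n, by rw [this]; exact one_mem E⟩
  have a2 : orderOf s = 2 := orderOf_eq_prime (by rw [pow_two, h.sqA s hs]) hs1
  have a3 : ∀ u ∈ (S : Subgroup G), ∀ v ∈ (S : Subgroup G), orderOf u = 2 → orderOf v = 2 →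
      u ∉ E → v ∉ E → u * v ∈ E := fun u hu v hv hu2 hv2 huE hvE =>
    hidx u ((h.inv u hu (sq2 u hu2)).resolve_right huE) huE
      v ((h.inv v hv (sq2 v hv2)).resolve_right hvE) hvE
  have a4 : s ∈ commutator G ⊔ pResidual 2 G := by
    rw [hG, top_sup_eq]; exact Subgroup.mem_top s
  have a5 : ¬ 2 ∣ (S : Subgroup G).index := S.not_dvd_index
  have a6 : ∀ x ∈ (S : Subgroup G), ∀ y ∈ (S : Subgroup G), ⁅x, y⁆ ∈ E :=
    fun x hx y hy => h.commE k htE hx hy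
  have a7 : IsPGroup 2 A := S.isPGroup'.to_le h.AS
  have a8 : ∀ r ∈ A, r * s = s * r := fun r hr => comm_of_sq h.sqA hr hs
  have a9 := Trans.thompson_transfer_involution a5 a6 a1 s a2 a3 a4 A a7 a8
  obtain ⟨b, -, hbs, hbA⟩ := a9
  have hor : ∀ r ∈ A, b⁻¹ * r * b ∈ A ∨ b⁻¹ * r * b ∈ E := fun r hr => h.inv _ (hbA r hr) (by
    calc b⁻¹ * r * b * (b⁻¹ * r * b) = b⁻¹ * (r * r) * b := by group
      _ = 1 := by rw [h.sqA r hr]; group)
  have a10 : ∃ r ∈ A, b⁻¹ * r * b ∉ E := by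
    by_contra e
    exact h.not_le hs hsE (b := b) fun r hr => not_not.1 fun e1 => e ⟨r, hr, e1⟩
  obtain ⟨r₀, hr₀, hr₀E⟩ := a10
  refine ⟨b, hbs, h.mem_norm hr₀ (fun e => hr₀E ?_) ?_, r₀, hr₀, hr₀E⟩
  · rw [e, mul_one, inv_mul_cancel]; exact one_mem E
  · rw [inv_inv]; exact (hor r₀ hr₀).resolve_right hr₀E

theorem big [Finite G] (h : Cfg S A E t) (k : Two S A E g) (htE : t ∈ E) (hG : commutator G = ⊤)
    {s : G} (hs : s ∈ A) (hsE : s ∉ E) {z : G} (hz : z ∈ A) (hzE : z ∈ E) (hz1 : z ≠ 1)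
    (hzt : z ≠ t) : False := by
  have hidx : ∀ a ∈ A, a ∉ E → ∀ a' ∈ A, a' ∉ E → a * a' ∈ E := fun a ha haE a' ha' haE' =>
    h.idx k htE hz hzE hz1 hzt ha haE ha' haE'
  obtain ⟨b, hbs, hN, r₀, hr₀, hr₀E⟩ := h.transfer k htE hG hs hsE hidx
  have hb1 : ∀ r ∈ A, b⁻¹ * r * b ∈ A := fun r hr => by simpa using (hN r).1 hr
  have cj : ∀ u v : G, b⁻¹ * (u * v) * b = b⁻¹ * u * b * (b⁻¹ * v * b) := fun u v => by group
  -- `w ∈ A₀ - A₀'`
  obtain ⟨w, hw, hwE, hwE'⟩ : ∃ w ∈ A, w ∈ E ∧ b⁻¹ * w * b ∉ E := by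
    by_cases e : r₀ ∈ E
    · exact ⟨r₀, hr₀, e, hr₀E⟩
    · refine ⟨r₀ * s, mul_mem hr₀ hs, hidx _ hr₀ e _ hs hsE, fun e1 => hr₀E ?_⟩
      rwa [cj, mul_mem_cancel_right hbs] at e1
  -- `w' ∈ A₀ ∩ A₀'`
  obtain ⟨w', hw', hw'E, hw'E', hw'1⟩ : ∃ w ∈ A, w ∈ E ∧ b⁻¹ * w * b ∈ E ∧ w ≠ 1 := by
    by_cases e1 : b⁻¹ * z * b ∈ E
    · exact ⟨z, hz, hzE, e1, hz1⟩
    by_cases e2 : b⁻¹ * t * b ∈ E
    · exact ⟨t, h.tA, htE, e2, h.t1⟩
    exact ⟨z * t, mul_mem hz h.tA, mul_mem hzE htE, cj z t ▸ hidx _ (hb1 z hz) e1 _ (hb1 t h.tA) e2,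
      fun e => hzt (by rw [eq_inv_of_mul_eq_one_left e, inv_of_sq (h.sqA t h.tA)])⟩
  obtain ⟨c, -, hcE, hc⟩ := h.surj k (h.AS hs) hsE hw hwE
  obtain ⟨d, -, hdE, hd⟩ := h.surj k (h.AS (hb1 w hw)) hwE' (hb1 w' hw') hw'E'
  have he := k.nE c hcE
  have he' := k.nE d hdE
  generalize g * c * g⁻¹ = e at hc he
  generalize g * d * g⁻¹ = e₁ at hd he'
  have fix : ∀ x, b⁻¹ * x * b ∈ E → b * e₁ * b⁻¹ * x * (b * e₁ * b⁻¹)⁻¹ = x := fun x hx => by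
    calc _ = b * (e₁ * (b⁻¹ * x * b)) * e₁⁻¹ * b⁻¹ := by group
      _ = x := by rw [comm_of_sq h.sqE he' hx]; group
  have mv : b * e₁ * b⁻¹ * w * (b * e₁ * b⁻¹)⁻¹ = w' * w := by
    calc _ = b * (e₁ * (b⁻¹ * w * b) * e₁⁻¹ * (b⁻¹ * w * b)⁻¹) * b⁻¹ * w := by group
      _ = _ := by rw [inv_of_sq (h.sqE _ he'), hd]; group
  have he'N : b * e₁ * b⁻¹ ∈ Subgroup.normalizer (A : Set G) :=
    mul_mem (mul_mem (by simpa using inv_mem hN) (h.S_le (h.ES he'))) hN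
  generalize b * e₁ * b⁻¹ = e' at fix mv he'N
  have efix : ∀ x ∈ E, e * x * e⁻¹ = x := fun x hx => by
    rw [comm_of_sq h.sqE he hx, mul_inv_cancel_right]
  have emv : e * s * e⁻¹ = w * s := by rw [inv_of_sq (h.sqE _ he), ← hc]; group
  -- the action of `κ = e e'` on `s, w, w'`
  have k1 : e * e' * s * (e * e')⁻¹ = w * s := by
    calc _ = e * (e' * s * e'⁻¹) * e⁻¹ := by group
      _ = _ := by rw [fix s hbs, emv]
  have k2 : e * e' * w * (e * e')⁻¹ = w' * w := by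
    calc _ = e * (e' * w * e'⁻¹) * e⁻¹ := by group
      _ = _ := by rw [mv, efix _ (mul_mem hw'E hwE)]
  have k3 : e * e' * w' * (e * e')⁻¹ = w' := by
    calc _ = e * (e' * w' * e'⁻¹) * e⁻¹ := by group
      _ = _ := by rw [fix w' hw'E', efix _ hw'E]
  have hκ : e * e' ∈ Subgroup.normalizer (A : Set G) := mul_mem (h.S_le (h.ES he)) he'N
  generalize e * e' = κ at k1 k2 k3 hκ
  exact h.ord4 hκ hs hw hw' hw'1 k1 k2 k3

theorem main [Finite G] (h : Cfg S A E t) (hG : commutator G = ⊤) :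
    (∃ B : Subgroup G, t ∈ B ∧ (∀ x ∈ B, x * x = 1) ∧ IsStronglyClosed B S) ∨
      Nonempty ((S : Subgroup G) ≃* DihedralGroup 4) := by
  by_cases hA : IsStronglyClosed A S
  · exact Or.inl ⟨A, h.tA, h.sqA, hA⟩
  obtain ⟨htE, g, k⟩ := h.exists_two hA
  by_cases hAE : A ≤ E
  · refine Or.inl ⟨E, htE, h.sqE, h.ES, fun x hx g hg => ?_⟩
    exact (h.inv _ hg (by rw [conj_mul, h.sqE x hx]; simp)).elim (fun e => hAE e) id
  obtain ⟨s, hs, hsE⟩ := SetLike.not_le_iff_exists.1 hAE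
  refine Or.inr (h.dih k htE hs hsE fun z hz hzE hz1 => ?_)
  by_contra hzt
  exact h.big k htE hG hs hsE hz hzE hz1 hzt

end Cfg

end Cfsg.Lib.Five.Ev
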