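import Cfsg.Agent.Class.Five.EvenA
import Cfsg.Agent.Class.TvConj

/-!
# Coordinates for a Sylow 2-subgroup of a transvection-free subgroup of `GL₅` in characteristic two
-/

set_option autoImplicit false

namespace Cfsg.Lib.Five.Ev

open Matrix

variable {F : Type*} [Field F]

/-- Coordinates of a unitriangular matrix commuting with `1 + E₁₄ + E₂₅`. -/
@[ext] structure U (F : Type*) where
  g : F
  a1 : F
  a2 : F
  b1 : F
  b2 : F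
  w11 : F
  w12 : F
  w21 : F
  w22 : F

namespace U

/-- The matrix with the given coordinates. -/
def mat (u : U F) : Matrix (Fin 5) (Fin 5) F :=
  !![1, u.g, u.a1, u.w11, u.w12; 0, 1, u.a2, u.w21, u.w22; 0, 0, 1, u.b1, u.b2;
    0, 0, 0, 1, u.g; 0, 0, 0, 0, 1]

/-- The product in coordinates. -/
@[simps] def mul (u v : U F) : U F where
  g := v.g + u.g
  a1 := v.a1 + u.g * v.a2 + u.a1
  a2 := v.a2 + u.a2
  b1 := v.b1 + u.b1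
  b2 := v.b2 + u.b1 * v.g + u.b2
  w11 := v.w11 + u.g * v.w21 + u.a1 * v.b1 + u.w11
  w12 := v.w12 + u.g * v.w22 + u.a1 * v.b2 + u.w11 * v.g + u.w12
  w21 := v.w21 + u.a2 * v.b1 + u.w21
  w22 := v.w22 + u.a2 * v.b2 + u.w21 * v.g + u.w22

/-- The identity in coordinates. -/
@[simps] def one : U F := ⟨0, 0, 0, 0, 0, 0, 0, 0, 0⟩

theorem mat_mul (u v : U F) : u.mat * v.mat = (u.mul v).mat := by
  ext i j
  fin_cases i <;> fin_cases j <;> simp [mat, mul_apply, Fin.sum_univ_five]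

theorem mat_one : (one : U F).mat = 1 := by
  ext i j
  fin_cases i <;> fin_cases j <;> simp [mat]

theorem mat_inj {u v : U F} (h : u.mat = v.mat) : u = v := by
  have := fun i j => congrFun (congrFun h i) j
  exact U.ext (this 0 1) (this 0 2) (this 1 2) (this 2 3) (this 2 4) (this 0 3) (this 0 4)
    (this 1 3) (this 1 4)

theorem mat_mulVec (u : U F) (v : Fin 5 → F) : u.mat *ᵥ v - v =
    ![u.g * v 1 + u.a1 * v 2 + u.w11 * v 3 + u.w12 * v 4, u.a2 * v 2 + u.w21 * v 3 + u.w22 * v 4,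
      u.b1 * v 3 + u.b2 * v 4, u.g * v 4, 0] := by
  ext i
  fin_cases i <;> simp [mat, dotProduct, Fin.sum_univ_five] <;> ring

end U

/-- The span of the first two basis vectors. -/
def L2 (F : Type*) [Field F] : Submodule F (Fin 5 → F) where
  carrier := {v | v 2 = 0 ∧ v 3 = 0 ∧ v 4 = 0}
  add_mem' := fun h k => by simp_all
  zero_mem' := by simp
  smul_mem' := fun c v h => by simp_all

theorem mem_L2 {v : Fin 5 → F} : v ∈ L2 F ↔ v 2 = 0 ∧ v 3 = 0 ∧ v 4 = 0 := Iff.rfl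

theorem finrank_L2 : Module.finrank F (L2 F) ≤ 2 := by
  let f : (Fin 2 → F) →ₗ[F] (Fin 5 → F) := toLin' !![1, 0; 0, 1; 0, 0; 0, 0; 0, 0]
  have : L2 F ≤ LinearMap.range f := fun v hv => ⟨![v 0, v 1], by
    ext i
    fin_cases i <;> simp [f, hv.1, hv.2.1, hv.2.2]⟩
  exact (Submodule.finrank_mono this).trans (by simpa using f.finrank_range_le)

theorem exists_of_L2 {M : Matrix (Fin 5) (Fin 5) F} (h1 : ∀ v, M *ᵥ v - v ∈ L2 F)
    (h2 : ∀ v ∈ L2 F, M *ᵥ v = v) : ∃ u : U F, M = u.mat ∧ u.g = 0 ∧ u.b1 = 0 ∧ u.b2 = 0 := by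
  refine ⟨⟨0, M 0 2, M 1 2, 0, 0, M 0 3, M 0 4, M 1 3, M 1 4⟩, ?_, rfl, rfl, rfl⟩
  have a0 := fun i => congrFun (h2 (Pi.single 0 1) (by simp [mem_L2])) i
  have a1 := fun i => congrFun (h2 (Pi.single 1 1) (by simp [mem_L2])) i
  have a2 := h1 (Pi.single 2 1)
  have a3 := h1 (Pi.single 3 1)
  have a4 := h1 (Pi.single 4 1)
  simp [mem_L2, sub_eq_zero] at a0 a1 a2 a3 a4
  ext i j
  fin_cases i <;> fin_cases j <;> simp [U.mat, a0, a1, a2, a3, a4]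

variable {G : Type*} [Group G]

/-- A transvection-free representation in which `S` consists of matrices of the standard shape. -/
structure Rep0 (ρ : G →* Matrix (Fin 5) (Fin 5) F) (S : Sylow 2 G) (t : G) : Prop where
  two : (2 : F) = 0
  ntv : ∀ x v f, ρ x = 1 + vecMulVec v f → f ⬝ᵥ v = 0 → x = 1
  sh : ∀ s ∈ (S : Subgroup G), ∃ u : U F, ρ s = u.mat
  tS : t ∈ (S : Subgroup G)
  tm : ρ t = (⟨0, 0, 0, 0, 0, 1, 0, 0, 1⟩ : U F).mat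

variable {ρ : G →* Matrix (Fin 5) (Fin 5) F} {S : Sylow 2 G} {t : G}

theorem co_mul {x y : G} {u v : U F} (hx : ρ x = u.mat) (hy : ρ y = v.mat) :
    ρ (x * y) = (u.mul v).mat := by rw [map_mul, hx, hy, U.mat_mul]

theorem co_eq {x y : G} {u v : U F} (hx : ρ x = u.mat) (hy : ρ y = v.mat) (h : x = y) : u = v :=
  U.mat_inj (by rw [← hx, ← hy, h])

theorem co_one : ρ 1 = (U.one : U F).mat := by rw [map_one, U.mat_one]

namespace Rep0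

theorem ten (h : Rep0 ρ S t) {x : G} {u : U F} (hx : ρ x = u.mat) (c₀ c₁ r₂ r₃ r₄ : F)
    (e : u = ⟨0, c₀ * r₂, c₁ * r₂, 0, 0, c₀ * r₃, c₀ * r₄, c₁ * r₃, c₁ * r₄⟩) : x = 1 := by
  refine h.ntv x ![c₀, c₁, 0, 0, 0] ![0, 0, r₂, r₃, r₄] ?_ (by simp)
  rw [hx, e]
  ext i j
  fin_cases i <;> fin_cases j <;> simp [U.mat]

theorem row (h : Rep0 ρ S t) {x : G} {u : U F} (hx : ρ x = u.mat) (e1 : u.g = 0) (e2 : u.a2 = 0)
    (e3 : u.b1 = 0) (e4 : u.b2 = 0) (e5 : u.w21 = 0) (e6 : u.w22 = 0) : x = 1 :=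
  h.ten hx 1 0 u.a1 u.w11 u.w12 (by ext <;> simp [*])

theorem inj (h : Rep0 ρ S t) {x y : G} (e : ρ x = ρ y) : x = y := by
  have : ρ (x * y⁻¹) = (U.one : U F).mat := by rw [map_mul, e, ← map_mul, mul_inv_cancel, co_one]
  exact mul_inv_eq_one.1 (h.row this rfl rfl rfl rfl rfl rfl)

theorem eq_of (h : Rep0 ρ S t) {x y : G} {u v : U F} (hx : ρ x = u.mat) (hy : ρ y = v.mat)
    (e : u = v) : x = y := h.inj (by rw [hx, hy, e])

theorem ab (h : Rep0 ρ S t) {x : G} {u : U F} (hx : ρ x = u.mat) (e : u.g = 0) :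
    (u.a1 = 0 ∧ u.a2 = 0) ∨ (u.b1 = 0 ∧ u.b2 = 0) := by
  have h2 := h.two
  have e1 := co_eq (co_mul hx hx) co_one (h.ten (co_mul hx hx) u.a1 u.a2 0 u.b1 u.b2 (by
    ext <;> simp [e] <;> grind))
  simp only [U.ext_iff, U.mul, U.one, e] at e1
  grind

theorem a_or_b (h : Rep0 ρ S t) :
    (∀ s ∈ (S : Subgroup G), ∀ u : U F, ρ s = u.mat → u.g = 0 → u.a1 = 0 ∧ u.a2 = 0) ∨
      ∀ s ∈ (S : Subgroup G), ∀ u : U F, ρ s = u.mat → u.g = 0 → u.b1 = 0 ∧ u.b2 = 0 := by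
  by_contra k
  push Not at k
  obtain ⟨⟨s, -, u, hu, eu, ku⟩, ⟨r, -, v, hv, ev, kv⟩⟩ := k
  have k1 := h.ab hu eu
  have k2 := h.ab hv ev
  have k3 := h.ab (co_mul hu hv) (by simp [eu, ev])
  simp only [U.mul, eu, ev] at k3
  grind

/-- The elements acting trivially on `L2` and on the quotient. -/
def A (h : Rep0 ρ S t) : Subgroup G where
  carrier := {x | ∃ u : U F, ρ x = u.mat ∧ u.g = 0 ∧ u.b1 = 0 ∧ u.b2 = 0}
  mul_mem' := fun ⟨u, hu, e⟩ ⟨v, hv, k⟩ => ⟨_, co_mul hu hv, by simp [e, k]⟩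
  one_mem' := ⟨_, co_one, rfl, rfl, rfl⟩
  inv_mem' := fun {x} ⟨u, hu, e⟩ => by
    have h2 := h.two
    rw [inv_of_sq (h.eq_of (co_mul hu hu) co_one (by ext <;> simp [e] <;> grind))]
    exact ⟨u, hu, e⟩

theorem sqA (h : Rep0 ρ S t) {x : G} (hx : x ∈ h.A) : x * x = 1 := by
  obtain ⟨u, hu, e⟩ := hx
  have h2 := h.two
  exact h.eq_of (co_mul hu hu) co_one (by ext <;> simp [e] <;> grind)

theorem memA (h : Rep0 ρ S t) {x : G} :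
    x ∈ h.A ↔ (∀ v, ρ x *ᵥ v - v ∈ L2 F) ∧ ∀ v ∈ L2 F, ρ x *ᵥ v = v := by
  refine ⟨fun ⟨u, hu, e⟩ => ⟨fun v => ?_, fun v hv => ?_⟩, fun k => exists_of_L2 k.1 k.2⟩
  · rw [hu, U.mat_mulVec]
    simp [mem_L2, e]
  · rw [← sub_eq_zero, hu, U.mat_mulVec]
    simp [e, hv.1, hv.2.1, hv.2.2]

theorem onto (h : Rep0 ρ S t) {x : G} (hx : x ∈ h.A) (h1 : x ≠ 1) {w : Fin 5 → F} (hw : w ∈ L2 F) :
    ∃ v, ρ x *ᵥ v - v = w := by
  have hle : LinearMap.range (ρ x - 1).mulVecLin ≤ L2 F := by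
    rintro _ ⟨v, rfl⟩
    simpa [sub_mulVec] using (h.memA.1 hx).1 v
  have hr : 2 ≤ (ρ x - 1).rank := by
    by_contra k
    obtain ⟨v, f, e⟩ := Class.exists_vecMulVec_of_rank_le_one (A := ρ x - 1) (by omega)
    refine h1 (h.ntv x v f (by rw [← e]; simp) ?_)
    obtain ⟨u, hu, -⟩ := hx
    rw [dotProduct_comm, ← trace_vecMulVec, ← e, hu]
    simp [U.mat, trace, Fin.sum_univ_five]
    norm_num
  obtain ⟨v, hv⟩ := (Submodule.eq_of_le_of_finrank_le hle (finrank_L2.trans hr)).ge hw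
  exact ⟨v, by simpa [sub_mulVec] using hv⟩

theorem conj_vec (ρ : G →* Matrix (Fin 5) (Fin 5) F) (g x : G) (v : Fin 5 → F) :
    ρ g *ᵥ (ρ x *ᵥ v - v) = ρ (g * x * g⁻¹) *ᵥ (ρ g *ᵥ v) - ρ g *ᵥ v := by
  rw [mulVec_sub, mulVec_mulVec, mulVec_mulVec, ← map_mul, ← map_mul, inv_mul_cancel_right]

theorem vec_cancel (ρ : G →* Matrix (Fin 5) (Fin 5) F) (g : G) (v : Fin 5 → F) :
    ρ g *ᵥ (ρ g⁻¹ *ᵥ v) = v := by
  rw [mulVec_mulVec, ← map_mul, mul_inv_cancel, map_one, one_mulVec]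

theorem pres (h : Rep0 ρ S t) {x g : G} (hx : x ∈ h.A) (h1 : x ≠ 1) (hg : g * x * g⁻¹ ∈ h.A)
    {w : Fin 5 → F} (hw : w ∈ L2 F) : ρ g *ᵥ w ∈ L2 F := by
  obtain ⟨v, rfl⟩ := h.onto hx h1 hw
  rw [conj_vec]
  exact (h.memA.1 hg).1 _

theorem ti (h : Rep0 ρ S t) {x g : G} (hx : x ∈ h.A) (h1 : x ≠ 1) (hg : g * x * g⁻¹ ∈ h.A) {a : G}
    (ha : a ∈ h.A) : g * a * g⁻¹ ∈ h.A := by
  refine h.memA.2 ⟨fun v => ?_, fun v hv => ?_⟩
  · rw [← vec_cancel ρ g v, ← conj_vec]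
    exact h.pres hx h1 hg ((h.memA.1 ha).1 _)
  · have := h.pres hg (by simpa using h1) (g := g⁻¹) (by simpa [mul_assoc] using hx) hv
    rw [← sub_eq_zero, ← vec_cancel ρ g v, ← conj_vec, (h.memA.1 ha).2 _ this, sub_self,
      mulVec_zero]

theorem tA (h : Rep0 ρ S t) : t ∈ h.A := ⟨_, h.tm, rfl, rfl, rfl⟩

theorem t1 (h : Rep0 ρ S t) : t ≠ 1 := fun e => by
  simpa using congrArg U.w11 (co_eq h.tm co_one e)

theorem tZ (h : Rep0 ρ S t) {s : G} (hs : s ∈ (S : Subgroup G)) : s * t = t * s := by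
  obtain ⟨u, hu⟩ := h.sh s hs
  exact h.eq_of (co_mul hu h.tm) (co_mul h.tm hu) (by ext <;> simp <;> ring)

theorem AS [Finite G] (h : Rep0 ρ S t) : h.A ≤ S := by
  have h1 : IsPGroup 2 h.A := fun x => ⟨1, Subtype.ext (by simpa [pow_two] using h.sqA x.2)⟩
  have h2 : (S : Subgroup G) ≤ Subgroup.normalizer (h.A : Set G) := fun s hs =>
    Subgroup.mem_normalizer_fintype fun a ha => h.ti h.tA h.t1 (by
      rw [h.tZ hs, mul_inv_cancel_right]; exact h.tA) ha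
  have := S.is_maximal' (S.isPGroup'.to_sup_of_normal_right' h1 h2) le_sup_left
  exact le_sup_right.trans this.le

theorem sqE' (h : Rep0 ρ S t) {x : G} {u : U F} (hu : ρ x = u.mat) (e1 : u.a2 = 0) (e2 : u.b1 = 0)
    (e3 : u.w21 = 0) : x * x = 1 := by
  have h2 := h.two
  refine h.row (co_mul hu hu) ?_ ?_ ?_ ?_ ?_ ?_ <;> simp [*] <;> grind

/-- The second elementary abelian subgroup. -/
def E (h : Rep0 ρ S t) : Subgroup G where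
  carrier := {x | x ∈ (S : Subgroup G) ∧ ∃ u : U F, ρ x = u.mat ∧ u.a2 = 0 ∧ u.b1 = 0 ∧ u.w21 = 0}
  mul_mem' := fun ⟨hx, u, hu, e⟩ ⟨hy, v, hv, k⟩ => ⟨mul_mem hx hy, _, co_mul hu hv, by simp [e, k]⟩
  one_mem' := ⟨one_mem _, _, co_one, rfl, rfl, rfl⟩
  inv_mem' := fun {x} ⟨hx, u, hu, e⟩ => by
    rw [inv_of_sq (h.sqE' hu e.1 e.2.1 e.2.2)]
    exact ⟨hx, u, hu, e⟩

theorem nE (h : Rep0 ρ S t) {s e : G} (hs : s ∈ (S : Subgroup G)) (he : e ∈ h.E) :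
    s * e * s⁻¹ ∈ h.E := by
  obtain ⟨he, v, hv, k⟩ := he
  have hm := mul_mem (mul_mem hs he) (inv_mem hs)
  obtain ⟨u, hu⟩ := h.sh s hs
  obtain ⟨w, hw⟩ := h.sh _ hm
  have e1 := co_eq (co_mul hw hu) (co_mul hu hv) (by group)
  simp only [U.ext_iff, U.mul, k] at e1
  exact ⟨hm, w, hw, by grind⟩

theorem par (h : Rep0 ρ S t) {g y₁ y : G} {u v : U F} (hu : ρ y₁ = u.mat) (hv : ρ y = v.mat)
    (e1 : u.a2 = 0) (e2 : u.b1 = 0) (e3 : u.w21 = 0) (h1 : y₁ ≠ 1) (k1 : g⁻¹ * y₁ * g ∈ h.A)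
    (k : g⁻¹ * y * g ∈ h.A) : ∃ c, v.w22 = c * u.w22 ∧ v.b2 = c * u.b2 ∧ v.g = c * u.g := by
  obtain ⟨w, hw⟩ := h.onto k1 (fun e => h1 (by simpa [mul_assoc, inv_mul_eq_one] using e))
    ((h.memA.1 k).1 (ρ g⁻¹ *ᵥ Pi.single 4 1))
  have := congrArg (ρ g *ᵥ ·) hw
  simp only [conj_vec, vec_cancel, mul_assoc, mul_inv_cancel_left, mul_inv_cancel, mul_one, hu, hv,
    U.mat_mulVec] at this
  refine ⟨(ρ g *ᵥ w) 4, ?_, ?_, ?_⟩
  · simpa [e1, e3, mul_comm] using (congrFun this 1).symm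
  · simpa [e2, mul_comm] using (congrFun this 2).symm
  · simpa [mul_comm] using (congrFun this 3).symm

end Rep0

/-- The normalised situation. -/
structure Rep (ρ : G →* Matrix (Fin 5) (Fin 5) F) (S : Sylow 2 G) (t : G) : Prop
    extends Rep0 ρ S t where
  hb : ∀ s ∈ (S : Subgroup G), ∀ u : U F, ρ s = u.mat → u.g = 0 → u.b1 = 0 ∧ u.b2 = 0

namespace Rep

theorem memA (h : Rep ρ S t) {s : G} (hs : s ∈ (S : Subgroup G)) {u : U F} (hu : ρ s = u.mat)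
    (e : u.g = 0) : s ∈ h.A := ⟨u, hu, e, h.hb s hs u hu e⟩

theorem cE (h : Rep ρ S t) {y s : G} (hy : y ∈ h.E) (hyA : y ∉ h.A) (hs : s ∈ (S : Subgroup G))
    (e : s * y = y * s) : s ∈ h.E := by
  obtain ⟨hy, v, hv, k⟩ := hy
  obtain ⟨u, hu⟩ := h.sh s hs
  have e0 : v.g ≠ 0 := fun e0 => hyA (h.memA hy hv e0)
  have e1 := co_eq (co_mul hu hv) (co_mul hv hu) e
  simp only [U.ext_iff, U.mul, k] at e1
  exact ⟨hs, u, hu, by grind⟩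

theorem cA (h : Rep ρ S t) [Finite G] {x s : G} (hx : x ∈ h.A) (hxE : x ∉ h.E)
    (hs : s ∈ (S : Subgroup G)) (e : s * x = x * s) : s ∈ h.A := by
  have hxS := h.AS hx
  obtain ⟨v, hv, k⟩ := hx
  obtain ⟨u, hu⟩ := h.sh s hs
  refine h.memA hs hu ?_
  by_contra e0
  have e1 := co_eq (co_mul hu hv) (co_mul hv hu) e
  simp only [U.ext_iff, U.mul, k] at e1
  exact hxE ⟨hxS, v, hv, by grind⟩

theorem inv (h : Rep ρ S t) {s : G} (hs : s ∈ (S : Subgroup G)) (e : s * s = 1) :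
    s ∈ h.A ∨ s ∈ h.E := by
  obtain ⟨u, hu⟩ := h.sh s hs
  by_cases e0 : u.g = 0
  · exact Or.inl (h.memA hs hu e0)
  have h2 := h.two
  have e1 := co_eq (co_mul hu hu) co_one e
  simp only [U.ext_iff, U.mul, U.one] at e1
  exact Or.inr ⟨hs, u, hu, by grind⟩

theorem zc (h : Rep ρ S t) {y a : G} {u v : U F} (hu : ρ y = u.mat) (hv : ρ a = v.mat)
    (e1 : u.a2 = 0) (e2 : u.b1 = 0) (e3 : u.w21 = 0) (k1 : v.g = 0) (k2 : v.b1 = 0) (k3 : v.b2 = 0) :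
    ∃ z : U F, ρ (y * a * y * a) = z.mat ∧ z.g = 0 ∧ z.a2 = 0 ∧ z.b1 = 0 ∧ z.b2 = 0 ∧ z.w21 = 0 ∧
      z.w22 = v.a2 * u.b2 + v.w21 * u.g ∧
      z.w12 = u.g * v.w22 + v.a1 * u.b2 + v.w11 * u.g + u.g * (v.a2 * u.b2 + v.w21 * u.g) := by
  have h2 := h.two
  have e := congrArg U.w12 (co_eq (co_mul hu hu) co_one (h.sqE' hu e1 e2 e3))
  refine ⟨_, co_mul (co_mul (co_mul hu hv) hu) hv, ?_⟩
  simp only [U.mul, U.one, e1, e2, e3, k1, k2, k3] at e ⊢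
  grind

theorem four (h : Rep ρ S t) [Finite G] {g a a' y₁ y₂ y₃ y₄ : G} (ha : a ∈ h.A) (ha' : a' ∈ h.A)
    (hn : a * a' ∉ h.E) (h1 : y₁ ∈ h.E) (h2 : y₂ ∈ h.E) (h3 : y₃ ∈ h.E) (h4 : y₄ ∈ h.E)
    (hA : y₁ ∉ h.A) (k1 : g⁻¹ * y₁ * g ∈ h.A) (k2 : g⁻¹ * y₂ * g ∈ h.A) (k3 : g⁻¹ * y₃ * g ∈ h.A)
    (k4 : g⁻¹ * y₄ * g ∈ h.A) (e1 : y₁ * a * y₁ * a = y₃ * a' * y₃ * a')
    (e2 : y₂ * a * y₂ * a = y₄ * a' * y₄ * a') (n1 : y₁ * a * y₁ * a ≠ 1)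
    (n2 : y₂ * a * y₂ * a ≠ 1) : y₁ * a * y₁ * a = y₂ * a * y₂ * a := by
  have hy1 : y₁ ≠ 1 := fun e => hA (by rw [e]; exact one_mem _)
  have h1' := h1
  have haa := mul_mem ha ha'
  obtain ⟨v, hv, v1, v2, v3⟩ := ha
  obtain ⟨v', hv', v1', v2', v3'⟩ := ha'
  obtain ⟨s1, u₁, hu1, p1, q1, r1⟩ := h1
  obtain ⟨-, u₂, hu2, p2, q2, r2⟩ := h2
  obtain ⟨-, u₃, hu3, p3, q3, r3⟩ := h3
  obtain ⟨-, u₄, hu4, p4, q4, r4⟩ := h4
  have g0 : u₁.g ≠ 0 := fun e0 => hA (h.memA s1 hu1 e0)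
  obtain ⟨c₂, c21, c22, c23⟩ := h.par hu1 hu2 p1 q1 r1 hy1 k1 k2
  obtain ⟨c₃, c31, c32, c33⟩ := h.par hu1 hu3 p1 q1 r1 hy1 k1 k3
  obtain ⟨c₄, c41, c42, c43⟩ := h.par hu1 hu4 p1 q1 r1 hy1 k1 k4
  obtain ⟨z₁, hz1, z11, z12, z13, z14, z15, z16, z17⟩ := h.zc hu1 hv p1 q1 r1 v1 v2 v3
  obtain ⟨z₂, hz2, z21, z22, z23, z24, z25, z26, z27⟩ := h.zc hu2 hv p2 q2 r2 v1 v2 v3
  obtain ⟨z₃, hz3, -, -, -, -, -, z36, z37⟩ := h.zc hu3 hv' p3 q3 r3 v1' v2' v3'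
  obtain ⟨z₄, hz4, -, -, -, -, -, z46, z47⟩ := h.zc hu4 hv' p4 q4 r4 v1' v2' v3'
  obtain ⟨z₅, hz5, z51, z52, z53, z54, z55, z56, -⟩ := h.zc hu1 (co_mul hv hv') p1 q1 r1
    (by simp [v1, v1']) (by simp [v2, v2']) (by simp [v3, v3', v2])
  obtain rfl := co_eq hz1 hz3 e1
  obtain rfl := co_eq hz2 hz4 e2
  have m1 : z₁.w22 ≠ 0 := fun e => n1 (h.row hz1 z11 z12 z13 z14 z15 e)
  have m2 : z₂.w22 ≠ 0 := fun e => n2 (h.row hz2 z21 z22 z23 z24 z25 e)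
  have m5 : z₅.w22 ≠ 0 := fun e => hn (h.cE h1' hA (h.AS haa) (by
    have e3 := h.row hz5 z51 z52 z53 z54 z55 e
    rw [mul_assoc, ← inv_eq_iff_mul_eq_one, _root_.mul_inv_rev, inv_of_sq (h.sqA haa),
      inv_of_sq (h.sqE' hu1 p1 q1 r1)] at e3
    exact e3))
  have two := h.two
  simp only [U.mul, v2', mul_zero, add_zero] at z56
  rw [c22, c23] at z26 z27
  rw [c32, c33] at z36 z37
  rw [c42, c43] at z46 z47
  have hc : z₁.w22 + z₂.w22 = 0 := by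
    set β := v.a2 * u₁.b2 + v.w21 * u₁.g
    set β' := v'.a2 * u₁.b2 + v'.w21 * u₁.g
    set τ := u₁.g * v.w22 + v.a1 * u₁.b2 + v.w11 * u₁.g
    set τ' := u₁.g * v'.w22 + v'.a1 * u₁.b2 + v'.w11 * u₁.g
    have a1 : β = c₃ * β' := by rw [← z16, z36]; ring
    have a2 : c₂ * β = c₄ * β' := by
      have : z₂.w22 = c₂ * β := by rw [z26]; ring
      rw [← this, z46]; ring
    have a3 : τ + u₁.g * β = c₃ * τ' + c₃ ^ 2 * u₁.g * β' := by rw [← z17, z37]; ring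
    have a4 : c₂ * τ + c₂ ^ 2 * u₁.g * β = c₄ * τ' + c₄ ^ 2 * u₁.g * β' := by
      have : z₂.w12 = c₂ * τ + c₂ ^ 2 * u₁.g * β := by rw [z27]; ring
      rw [← this, z47]; ring
    have a5 : β + β' ≠ 0 := fun e => m5 (by rw [z56, ← e]; ring)
    have a6 : z₂.w22 = c₂ * β := by rw [z26]; ring
    rw [z16] at m1 ⊢
    rw [a6] at m2 ⊢
    clear_value β β' τ τ'
    have b1 : β' ≠ 0 := fun e => m1 (by rw [a1, e, mul_zero])
    have b2 : c₂ ≠ 0 := left_ne_zero_of_mul m2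
    have b3 : c₃ ≠ 0 := fun e => m1 (by rw [a1, e, zero_mul])
    have b4 : c₃ + 1 ≠ 0 := fun e => a5 (by linear_combination a1 + β' * e)
    have b5 : c₄ = c₂ * c₃ := mul_right_cancel₀ b1 (by linear_combination -a2 + c₂ * a1)
    subst b5 a1
    have b6 : c₂ * (c₃ * (u₁.g * (β' * ((c₃ + 1) * (c₂ + 1))))) = 0 := by
      linear_combination a4 - c₂ * a3 + (c₂ * c₃ * u₁.g * β' * (1 + c₂ * c₃)) * two
    simp only [mul_eq_zero, b1, b2, b3, b4, g0, false_or] at b6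
    linear_combination c₃ * β' * b6
  have hz : y₁ * a * y₁ * a * (y₂ * a * y₂ * a) = 1 := by
    refine h.row (co_mul hz1 hz2) ?_ ?_ ?_ ?_ ?_ ?_ <;>
      simp [z11, z12, z13, z14, z15, z21, z22, z23, z24, z25]
    linear_combination hc
  rw [eq_inv_of_mul_eq_one_left hz, inv_of_sq (h.sqA ⟨_, hz2, z21, z23, z24⟩)]

theorem cfg (h : Rep ρ S t) [Finite G] : Cfg S h.A h.E t where
  AS := h.AS
  ES := fun _ hx => hx.1
  sqA := fun _ => h.sqA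
  sqE := fun _ ⟨_, _, hu, e⟩ => h.sqE' hu e.1 e.2.1 e.2.2
  ti := fun _ hx h1 _ hg _ ha => h.ti hx h1 hg ha
  nE := fun _ hs _ he => h.nE hs he
  sq := fun s hs => by
    obtain ⟨u, hu⟩ := h.sh s hs
    exact h.memA (mul_mem hs hs) (co_mul hu hu) (by simp [← two_mul, h.two])
  inv := fun _ => h.inv
  cE := fun _ hy hyA _ => h.cE hy hyA
  cA := fun _ hx hxE _ => h.cA hx hxE
  tA := h.tA
  t1 := h.t1
  tZ := fun _ => h.tZ
  four := fun _ _ ha _ ha' hn _ h1 _ h2 _ h3 _ h4 => h.four ha ha' hn h1 h2 h3 h4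

end Rep

end Cfsg.Lib.Five.Ev
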