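import Mathlib

/-!
# A class of involutions whose Sylow trace is a plane and three lines: the abstract argument
-/

set_option autoImplicit false

namespace Cfsg.Lib.Five.PL3

variable {G : Type*} [Group G]

/-- Some member of `R` interchanges `t` and `s`. -/
def Ed (R : Set G) (t s : G) : Prop := ∃ u ∈ R, u * t * u = s

/-- The members of `R` in `S` other than the three central ones. -/
def Pl (R : Set G) (S : Subgroup G) (l : Fin 3 → G) (b : G) : Prop := b ∈ R ∧ b ∈ S ∧ ∀ i, b ≠ l i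

/-- The trace of `R` on `S` is a plane and three lines. -/
structure Tc (R : Set G) (S : Subgroup G) (l : Fin 3 → G) : Prop where
  inj : Function.Injective l
  lR : ∀ i, l i ∈ R
  lS : ∀ i, l i ∈ S
  cen : ∀ i, ∀ t ∈ R, t ∈ S → Commute (l i) t
  ne : ∃ b, Pl R S l b
  mate : ∀ b, Pl R S l b → ∃ b', Pl R S l b' ∧ b ≠ b' ∧ Commute b b' ∧
    (∃ u ∈ R, u ∈ S ∧ u * b * u = b') ∧ ∀ c, Pl R S l c → Commute b c → c = b ∨ c = b'
  tri : ∀ u : Fin 3 → G, (∀ i, Pl R S l (u i)) →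
    (∃ k ∈ S, (∀ i, Commute k (l i)) ∧ ∃ i j, i ≠ j ∧ Commute (k * u i * k⁻¹) (u j)) ∨
      ∃ i, ∀ x, Pl R S l x → Commute (u i) (x * u i * x)

/-- The axioms. -/
structure Ax (R : Set G) : Prop where
  sq : ∀ t ∈ R, t * t = 1
  conj : ∀ g, ∀ t ∈ R, g * t * g⁻¹ ∈ R
  comm : ∀ t ∈ R, ∀ s ∈ R, ∀ w ∈ R, ∀ u ∈ R, t ≠ s → w ≠ t → w ≠ s → Commute t s → Commute w t →
    Commute w s → u * t * u = s → Commute w u
  braid : ∀ t ∈ R, ∀ s ∈ R, ∀ w ∈ R, ∀ u ∈ R, ∀ v ∈ R, t ≠ s → w ≠ t → w ≠ s → Commute t s →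
    Commute w t → Commute w s → u * t * u = s → v * s * v = w → u * v * u = v * u * v
  tc : ∀ S : Sylow 2 G, ∃ l, Tc R S l
  one : ∀ S : Sylow 2 G, ∀ t ∈ R, t ∈ (S : Subgroup G) → (∀ s ∈ (S : Subgroup G), Commute s t) →
    ∀ x ∈ R, ∃ g, x = g * t * g⁻¹

theorem isPGroup_closure {s : Set G} (h2 : ∀ x ∈ s, x * x = 1)
    (hc : ∀ x ∈ s, ∀ y ∈ s, Commute x y) : IsPGroup 2 (Subgroup.closure s) := by
  have c1 : ∀ x ∈ Subgroup.closure s, ∀ y ∈ Subgroup.closure s, Commute x y := fun x hx y hy =>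
    Subgroup.closure_induction₂ (p := fun x y _ _ => Commute x y) (fun x y a b => hc x a y b)
      (fun x _ => Commute.one_left x) (fun x _ => Commute.one_right x)
      (fun _ _ _ _ _ _ a b => a.mul_left b) (fun _ _ _ _ _ _ a b => a.mul_right b)
      (fun _ _ _ _ a => a.inv_left) (fun _ _ _ _ a => a.inv_right) hx hy
  rintro ⟨x, hx⟩
  refine ⟨1, Subtype.ext ?_⟩
  simp only [pow_one, Subgroup.coe_pow, Subgroup.coe_one]
  induction hx using Subgroup.closure_induction with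
  | mem x hx => rw [pow_two, h2 x hx]
  | one => simp
  | mul x y hx hy a b => rw [(c1 x hx y hy).mul_pow, a, b, one_mul]
  | inv x _ a => rw [inv_pow, a, inv_one]

theorem exists_conj_into [Finite G] (S : Sylow 2 G) {C H : Subgroup G} (hS : (S : Subgroup G) ≤ C)
    (hH : H ≤ C) (h : IsPGroup 2 H) : ∃ c ∈ C, ∀ x ∈ H, c * x * c⁻¹ ∈ (S : Subgroup G) := by
  obtain ⟨T, hT⟩ := (h.comap_subtype (K := C)).exists_le_sylow
  obtain ⟨k, rfl⟩ := MulAction.exists_smul_eq C (Sylow.subtype S hS) T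
  rw [Sylow.smul_subtype] at hT
  refine ⟨(k : G)⁻¹, inv_mem k.2, fun x hx => ?_⟩
  have : x ∈ ((k • S : Sylow 2 G) : Subgroup G) := hT (x := ⟨x, hH hx⟩) hx
  rw [Subgroup.smul_def, Sylow.coe_subgroup_smul, Subgroup.mem_pointwise_smul_iff_inv_smul_mem]
    at this
  simpa using this

variable {R : Set G} {S : Subgroup G} {l : Fin 3 → G} {t s w b : G}

theorem Ax.inv (h : Ax R) (ht : t ∈ R) : t⁻¹ = t := inv_eq_of_mul_eq_one_right (h.sq t ht)

theorem Ax.cj (h : Ax R) (ht : t ∈ R) (hs : s ∈ R) : t * s * t ∈ R := by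
  simpa [h.inv ht] using h.conj t s hs

theorem Ax.swap (h : Ax R) {u : G} (hu : u ∈ R) (e : u * t * u = s) : u * s * u = t := by
  rw [← e, ← mul_assoc, ← mul_assoc, h.sq u hu, one_mul, mul_assoc, h.sq u hu, mul_one]

theorem Ax.fix (h : Ax R) {u : G} (hu : u ∈ R) (e : Commute t u) : u * t * u = t := by
  rw [mul_assoc, e.eq, ← mul_assoc, h.sq u hu, one_mul]

theorem Ed.symm (h : Ax R) (e : Ed R t s) : Ed R s t :=
  let ⟨u, hu, k⟩ := e; ⟨u, hu, h.swap hu k⟩

theorem Ed.conj (h : Ax R) (e : Ed R t s) (g : G) : Ed R (g * t * g⁻¹) (g * s * g⁻¹) :=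
  let ⟨u, hu, k⟩ := e; ⟨_, h.conj g u hu, by rw [← k]; group⟩

theorem Ed.trans (h : Ax R) (ht : t ∈ R) (hs : s ∈ R) (hw : w ∈ R) (n1 : t ≠ s) (n2 : w ≠ t)
    (n3 : w ≠ s) (c1 : Commute t s) (c2 : Commute w t) (c3 : Commute w s) (e : Ed R t s)
    (e' : Ed R s w) : Ed R t w := by
  obtain ⟨u, hu, k⟩ := e
  obtain ⟨v, hv, k'⟩ := e'
  refine ⟨_, h.cj hu hv, ?_⟩
  calc u * v * u * t * (u * v * u) = u * (v * (u * t * u) * v) * u := by simp only [mul_assoc]
    _ = w := by rw [k, k', h.fix hu (h.comm t ht s hs w hw u hu n1 n2 n3 c1 c2 c3 k)]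

theorem Tc.pl (k : Tc R S l) {u : G} (ht : t ∈ R) (hS : t ∈ S) (hu : u ∈ R) (hu' : u ∈ S)
    (n : ¬ Commute t u) : Pl R S l t :=
  ⟨ht, hS, fun i e => n (e ▸ k.cen i u hu hu')⟩

theorem Tc.line (h : Ax R) (k : Tc R S l) (ht : t ∈ R) (hS : t ∈ S)
    (c : ∀ u ∈ R, u ∈ S → Commute t u) : ∃ i, t = l i := by
  by_contra n
  obtain ⟨b', -, n1, -, ⟨u, hu, hu', e⟩, -⟩ := k.mate t ⟨ht, hS, fun i e => n ⟨i, e⟩⟩
  exact n1 ((h.fix hu (c u hu hu')).symm.trans e)

theorem Tc.ed (k : Tc R S l) (ht : Pl R S l t) (hs : Pl R S l s) (c : Commute t s) (n : s ≠ t) :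
    Ed R t s := by
  obtain ⟨b', -, -, -, ⟨u, hu, -, e⟩, k1⟩ := k.mate t ht
  exact ⟨u, hu, e.trans ((k1 s hs c).resolve_left n).symm⟩

/-- There are no two disjoint edges. -/
theorem Ax.no_two [Finite G] (h : Ax R) {t' s' : G} (ht : t ∈ R) (hs : s ∈ R) (ht' : t' ∈ R)
    (hs' : s' ∈ R) (n1 : t ≠ s) (n2 : t' ≠ t) (n3 : t' ≠ s) (n4 : s' ≠ t) (n5 : s' ≠ s)
    (n6 : t' ≠ s') (c1 : Commute t s) (c2 : Commute t' t) (c3 : Commute t' s) (c4 : Commute s' t)
    (c5 : Commute s' s) (c6 : Commute t' s') (e : Ed R t s) (e' : Ed R t' s') : False := by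
  obtain ⟨u, hu, k⟩ := e
  obtain ⟨v, hv, k'⟩ := e'
  have a1 := h.comm t ht s hs t' ht' u hu n1 n2 n3 c1 c2 c3 k
  have a2 := h.comm t ht s hs s' hs' u hu n1 n4 n5 c1 c4 c5 k
  have a3 := h.comm t' ht' s' hs' t ht v hv n6 n2.symm n4.symm c6 c2.symm c4.symm k'
  have a4 := h.comm t' ht' s' hs' s hs v hv n6 n3.symm n5.symm c6 c3.symm c5.symm k'
  have a5 := h.comm t ht s hs v hv u hu n1 (fun e => n6 ((h.fix hv (e ▸ c2)).symm.trans k'))
    (fun e => n6 ((h.fix hv (e ▸ c3)).symm.trans k')) c1 a3.symm a4.symm k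
  have hA : IsPGroup 2 (Subgroup.closure {t, s, t', s'}) := isPGroup_closure
    (by rintro x (rfl | rfl | rfl | rfl) <;> exact h.sq _ ‹_›)
    (by
      rintro x (rfl | rfl | rfl | rfl) y (rfl | rfl | rfl | rfl) <;>
        first | exact Commute.refl _ | assumption | exact Commute.symm ‹_›)
  have hB : IsPGroup 2 (Subgroup.closure {u, v}) := isPGroup_closure
    (by rintro x (rfl | rfl) <;> exact h.sq _ ‹_›)
    (by
      rintro x (rfl | rfl) y (rfl | rfl) <;>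
        first | exact Commute.refl _ | assumption | exact Commute.symm ‹_›)
  have nm : ∀ x ∈ R, (∀ y ∈ ({t, s, t', s'} : Set G), x * y * x ∈ ({t, s, t', s'} : Set G)) →
      x ∈ Subgroup.normalizer (Subgroup.closure {t, s, t', s'} : Subgroup G) := fun x hx hy =>
    Subgroup.mem_normalizer_fintype fun n hn =>
      (Subgroup.closure_le ((Subgroup.closure {t, s, t', s'}).comap (MulAut.conj x).toMonoidHom)).2
        (fun y k => by simpa [h.inv hx] using Subgroup.subset_closure (hy y k)) hn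
  obtain ⟨T, hT⟩ := (hB.to_sup_of_normal_right' hA ((Subgroup.closure_le _).2 (by
    rintro x (rfl | rfl) <;> refine nm _ ‹_› ?_ <;> rintro y (rfl | rfl | rfl | rfl) <;>
      simp [k, k', h.swap hu k, h.swap hv k', h.fix hu a1, h.fix hu a2, h.fix hv a3,
        h.fix hv a4]))).exists_le_sylow
  obtain ⟨l, hl⟩ := h.tc T
  have mA : ∀ x ∈ ({t, s, t', s'} : Set G), x ∈ (T : Subgroup G) := fun x hx =>
    hT (Subgroup.mem_sup_right (Subgroup.subset_closure hx))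
  have mB : ∀ x ∈ ({u, v} : Set G), x ∈ (T : Subgroup G) := fun x hx =>
    hT (Subgroup.mem_sup_left (Subgroup.subset_closure hx))
  have p1 := hl.pl ht (mA t (by simp)) hu (mB u (by simp)) fun e => n1 ((h.fix hu e).symm.trans k)
  have p2 := hl.pl hs (mA s (by simp)) hu (mB u (by simp)) fun e =>
    n1 ((h.swap hu k).symm.trans (h.fix hu e))
  have p3 := hl.pl ht' (mA t' (by simp)) hv (mB v (by simp)) fun e =>
    n6 ((h.fix hv e).symm.trans k')
  obtain ⟨b', -, -, -, -, k1⟩ := hl.mate t p1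
  exact n3 (((k1 t' p3 c2.symm).resolve_left n2).trans ((k1 s p2 c1).resolve_left n1.symm).symm)

/-- A Sylow subgroup centralises one of its three lines. -/
theorem Tc.fixed (h : Ax R) (hS : IsPGroup 2 S) (k : Tc R S l) : ∃ i, ∀ s ∈ S, Commute s (l i) := by
  let X := {t : G // t ∈ R ∧ t ∈ S ∧ ∀ u ∈ R, u ∈ S → Commute t u}
  let _ : MulAction S X :=
    { smul := fun s t => ⟨s * t.1 * s⁻¹, h.conj _ _ t.2.1, mul_mem (mul_mem s.2 t.2.2.1) (inv_mem s.2),
        fun u hu hu' => by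
          have := (t.2.2.2 _ (h.conj (s : G)⁻¹ u hu)
            (mul_mem (mul_mem (inv_mem s.2) hu') (inv_mem (inv_mem s.2)))).conj (s : G)
          simpa [mul_assoc] using this⟩
      one_smul := fun t => Subtype.ext (show ((1 : S) : G) * t.1 * ((1 : S) : G)⁻¹ = t.1 by simp)
      mul_smul := fun a c t => Subtype.ext (show ((a * c : S) : G) * t.1 * ((a * c : S) : G)⁻¹ =
        a * (c * t.1 * (c : G)⁻¹) * (a : G)⁻¹ by simp [mul_assoc]) }
  have hc : Nat.card X = 3 := by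
    rw [← Nat.card_eq_of_bijective (fun i => (⟨l i, k.lR i, k.lS i, k.cen i⟩ : X))
      ⟨fun i j e => k.inj (congrArg Subtype.val e), fun t =>
        (k.line h t.2.1 t.2.2.1 t.2.2.2).imp fun i e => Subtype.ext e.symm⟩]
    simp
  obtain ⟨t, ht⟩ := hS.nonempty_fixed_point_of_prime_not_dvd_card X (by rw [hc]; norm_num)
  obtain ⟨i, e⟩ := k.line h t.2.1 t.2.2.1 t.2.2.2
  refine ⟨i, fun s hs => ?_⟩
  have : s * t.1 * s⁻¹ = t.1 := congrArg Subtype.val (ht ⟨s, hs⟩)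
  rw [← e]
  exact mul_inv_eq_iff_eq_mul.1 this

/-- In a frame there is an edge avoiding a given vertex. -/
theorem Ax.avoid [Finite G] (h : Ax R) {ι : Type} [Fintype ι] (hι : Fintype.card ι = 5) {f : ι → G}
    (hf : Function.Injective f) (hR : ∀ i, f i ∈ R) (hc : ∀ i j, Commute (f i) (f j)) (i : ι) :
    ∃ j k, j ≠ k ∧ j ≠ i ∧ k ≠ i ∧ Ed R (f j) (f k) := by
  classical
  obtain ⟨S⟩ : Nonempty (Sylow 2 G) := inferInstance
  obtain ⟨l, hl⟩ := h.tc S
  obtain ⟨m, hm⟩ := hl.fixed h S.isPGroup'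
  obtain ⟨g, hg⟩ := h.one S _ (hl.lR m) (hl.lS m) hm _ (hR i)
  let f' : ι → G := fun j => g⁻¹ * f j * g⁻¹⁻¹
  have e0 : f' i = l m := by simp only [f', hg]; group
  have hR' : ∀ j, f' j ∈ R := fun j => h.conj _ _ (hR j)
  have hc' : ∀ j k, Commute (f' j) (f' k) := fun j k => (hc j k).conj _
  obtain ⟨c, hcC, hcS⟩ := exists_conj_into S (C := Subgroup.centralizer {l m})
    (H := Subgroup.closure (Set.range f'))
    (fun s hs => Subgroup.mem_centralizer_singleton_iff.2 (hm s hs))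
    ((Subgroup.closure_le _).2 (by
      rintro _ ⟨j, rfl⟩
      exact Subgroup.mem_centralizer_singleton_iff.2 (e0 ▸ hc' j i)))
    (isPGroup_closure (by rintro _ ⟨j, rfl⟩; exact h.sq _ (hR' j))
      (by rintro _ ⟨j, rfl⟩ _ ⟨k, rfl⟩; exact hc' j k))
  let F : ι → G := fun j => c * f' j * c⁻¹
  have hF : Function.Injective F := fun j k e => hf (by simpa [F, f'] using e)
  have e1 : F i = l m := by
    simp only [F, e0]
    rw [Subgroup.mem_centralizer_singleton_iff.1 hcC, mul_inv_cancel_right]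
  let s : Finset ι := Finset.univ.filter fun j => ∃ n, F j = l n
  have hs : s.card ≤ 3 := by
    have := Finset.card_le_card_of_injOn (s := s) (t := Finset.univ.image l) F
      (fun j hj => by
        obtain ⟨n, e⟩ := (Finset.mem_filter.1 hj).2
        simp [e]) hF.injOn
    exact this.trans (Finset.card_image_le.trans (by simp))
  obtain ⟨j, hj, k, hk, n⟩ := Finset.one_lt_card.1 (show 1 < sᶜ.card by
    rw [Finset.card_compl, hι]; omega)
  have pl : ∀ j ∈ sᶜ, Pl R S l (F j) := fun j hj =>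
    ⟨h.conj _ _ (hR' j), hcS _ (Subgroup.subset_closure ⟨j, rfl⟩), fun n e =>
      Finset.mem_compl.1 hj (Finset.mem_filter.2 ⟨Finset.mem_univ _, n, e⟩)⟩
  refine ⟨j, k, n, fun e => (pl j hj).2.2 m (e ▸ e1), fun e => (pl k hk).2.2 m (e ▸ e1), ?_⟩
  have := (hl.ed (pl j hj) (pl k hk) ((hc' j k).conj c) fun e => n (hF e).symm).conj h (g * c⁻¹)
  simpa [F, f', mul_assoc] using this

theorem Tc.same (h : Ax R) (k : Tc R S l) (ht : Pl R S l t) (hs : Pl R S l s) (c : Commute t s)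
    {i : Fin 3} (e : Ed R t (l i)) : Ed R s (l i) := by
  by_cases n : s = t
  · exact n ▸ e
  exact Ed.trans h hs.1 ht.1 (k.lR i) n (hs.2.2 i).symm (ht.2.2 i).symm c.symm
    (k.cen i s hs.1 hs.2.1) (k.cen i t ht.1 ht.2.1) ((k.ed ht hs c n).symm h) e

theorem Tc.uniq [Finite G] (h : Ax R) (k : Tc R S l) (ht : Pl R S l t) {i j : Fin 3}
    (e : Ed R t (l i)) (e' : Ed R t (l j)) : i = j := by
  by_contra n
  obtain ⟨b', p, n1, c, -, -⟩ := k.mate t ht
  exact h.no_two ht.1 (k.lR i) p.1 (k.lR j) (ht.2.2 i) n1.symm (p.2.2 i) (ht.2.2 j).symm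
    (fun e => n (k.inj e).symm) (p.2.2 j) (k.cen i t ht.1 ht.2.1).symm c.symm
    (k.cen i b' p.1 p.2.1).symm (k.cen j t ht.1 ht.2.1) (k.cen j _ (k.lR i) (k.lS i))
    (k.cen j b' p.1 p.2.1).symm e (k.same h ht p c e')

theorem Tc.ex [Finite G] (h : Ax R) (k : Tc R S l) (ht : Pl R S l t) : ∃ i, Ed R t (l i) := by
  obtain ⟨b', p, n1, c, -, -⟩ := k.mate t ht
  have ll : ∀ i j, Commute (l i) (l j) := fun i j => k.cen i _ (k.lR j) (k.lS j)
  obtain ⟨i, j, n, a1, a2, e⟩ := h.avoid (ι := Bool ⊕ Fin 3) (by simp)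
    (f := Sum.elim (fun x => cond x t b') l)
    (by
      rintro ((_ | _) | i) ((_ | _) | j) e <;> simp only [Sum.elim_inl, Sum.elim_inr, cond] at e
      exacts [rfl, absurd e.symm n1, absurd e (p.2.2 j), absurd e n1, rfl, absurd e (ht.2.2 j),
        absurd e.symm (p.2.2 i), absurd e.symm (ht.2.2 i), congrArg _ (k.inj e)])
    (by rintro ((_ | _) | i); exacts [p.1, ht.1, k.lR i])
    (by
      rintro ((_ | _) | i) ((_ | _) | j)
      exacts [Commute.refl _, c.symm, (k.cen j _ p.1 p.2.1).symm, c, Commute.refl _,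
        (k.cen j _ ht.1 ht.2.1).symm, k.cen i _ p.1 p.2.1, k.cen i _ ht.1 ht.2.1, ll i j])
    (.inl true)
  rcases i with (_ | _) | i <;> rcases j with (_ | _) | j <;> try contradiction
  · exact ⟨j, k.same h p ht c.symm e⟩
  · exact ⟨i, k.same h p ht c.symm (e.symm h)⟩
  · have n' : l i ≠ l j := fun e => n (congrArg _ (k.inj e))
    exact (h.no_two ht.1 p.1 (k.lR i) (k.lR j) n1 (ht.2.2 i).symm (p.2.2 i).symm (ht.2.2 j).symm
      (p.2.2 j).symm n' c (k.cen i _ ht.1 ht.2.1) (k.cen i _ p.1 p.2.1) (k.cen j _ ht.1 ht.2.1)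
      (k.cen j _ p.1 p.2.1) (ll i j) (k.ed ht p c n1.symm) e).elim

/-- Burnside's fusion argument: all three lines occur. -/
theorem Tc.all [Finite G] (h : Ax R) {T : Sylow 2 G} (k : Tc R T l) (i : Fin 3) :
    ∃ b, Pl R T l b ∧ Ed R b (l i) := by
  obtain ⟨m, hm⟩ := k.fixed h T.isPGroup'
  have key : ∀ i, ∃ x : G, x * l i * x⁻¹ = l m ∧ (∀ b, Pl R T l b → Pl R T l (x * b * x⁻¹)) ∧
      ∀ b, Pl R T l b → Pl R T l (x⁻¹ * b * x⁻¹⁻¹) := fun i => by
    obtain ⟨g, hg⟩ := h.one T _ (k.lR m) (k.lS m) hm _ (k.lR i)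
    let W : Subgroup G := Subgroup.closure (R ∩ (T : Subgroup G))
    have hW : W ≤ T := (Subgroup.closure_le _).2 Set.inter_subset_right
    obtain ⟨c, hcC, hcS⟩ := exists_conj_into T (C := Subgroup.centralizer {l m})
      (H := W.map (MulAut.conj g⁻¹).toMonoidHom)
      (fun s hs => Subgroup.mem_centralizer_singleton_iff.2 (hm s hs))
      (Subgroup.map_le_iff_le_comap.2 ((Subgroup.closure_le _).2 fun x hx =>
        Subgroup.mem_centralizer_singleton_iff.2 (by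
          have := ((k.cen i x hx.1 hx.2).conj g⁻¹).symm.eq
          simpa [hg, mul_assoc] using this)))
      ((T.isPGroup'.to_le hW).map _)
    have m1 : Set.MapsTo (fun b => c * g⁻¹ * b * (c * g⁻¹)⁻¹) (R ∩ (T : Subgroup G))
        (R ∩ (T : Subgroup G)) := fun b hb => ⟨h.conj _ _ hb.1, by
      have := hcS _ (Subgroup.mem_map_of_mem _ (Subgroup.subset_closure hb))
      rw [SetLike.mem_coe]
      convert this using 1
      simp [mul_assoc]⟩
    have m2 := ((Set.toFinite _).injOn_iff_bijOn_of_mapsTo m1).1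
      (fun a _ b _ e => by simpa using e)
    have m3 : Set.MapsTo (fun b => (c * g⁻¹)⁻¹ * b * (c * g⁻¹)⁻¹⁻¹) (R ∩ (T : Subgroup G))
        (R ∩ (T : Subgroup G)) := fun b hb => by
      obtain ⟨a, ha, rfl⟩ := m2.surjOn hb
      simpa [mul_assoc] using ha
    have pl : ∀ x : G, Set.MapsTo (fun b => x * b * x⁻¹) (R ∩ (T : Subgroup G))
        (R ∩ (T : Subgroup G)) → ∀ b, Pl R T l b → Pl R T l (x * b * x⁻¹) := fun x hx b hb => by
      obtain ⟨b', -, n1, -, ⟨u, hu, hu', e⟩, -⟩ := k.mate b hb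
      refine k.pl (hx ⟨hb.1, hb.2.1⟩).1 (hx ⟨hb.1, hb.2.1⟩).2 (hx ⟨hu, hu'⟩).1 (hx ⟨hu, hu'⟩).2
        fun c => n1 ((h.fix hu ?_).symm.trans e)
      simpa [mul_assoc] using c.conj x⁻¹
    refine ⟨c * g⁻¹, ?_, pl _ m1, pl _ m3⟩
    have := Subgroup.mem_centralizer_singleton_iff.1 hcC
    rw [hg]
    calc _ = c * l m * c⁻¹ := by group
      _ = l m := by rw [this, mul_inv_cancel_right]
  obtain ⟨b, hb⟩ := k.ne
  obtain ⟨j, e⟩ := k.ex h hb
  obtain ⟨x, x1, x2, -⟩ := key j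
  obtain ⟨y, y1, -, y3⟩ := key i
  refine ⟨_, y3 _ (x2 b hb), ?_⟩
  have := (x1 ▸ e.conj h x).conj h y⁻¹
  rwa [← y1, show y⁻¹ * (y * l i * y⁻¹) * y⁻¹⁻¹ = l i by group] at this

/-- Two members interchanging the same pair belong to the same line. -/
theorem Tc.two (h : Ax R) (k : Tc R S l) {c c' x y : G} (hc : Pl R S l c)
    (hc' : Pl R S l c') (hx : Pl R S l x) (hy : Pl R S l y) (n : c ≠ c') (cc : Commute c c')
    (ex : x * c * x = c') (ey : y * c * y = c') {i j : Fin 3} (e : Ed R c' (l i))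
    (e' : Ed R x (l j)) : Ed R y (l j) := by
  obtain ⟨s, hs, ks⟩ := e
  have br : ∀ d ∈ R, d * c * d = c' → d * s * d = s * d * s := fun d hd e =>
    h.braid c hc.1 c' hc'.1 _ (k.lR i) d hd s hs n (hc.2.2 i).symm (hc'.2.2 i).symm cc
      (k.cen i _ hc.1 hc.2.1) (k.cen i _ hc'.1 hc'.2.1) e ks
  have b1 := br x hx.1 ex
  have hd := h.cj hx.1 hy.1
  have b2 := br _ hd (by
    calc _ = x * (y * (x * c * x) * y) * x := by simp only [mul_assoc]
      _ = c' := by rw [ex, h.swap hy.1 ey, ex])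
  have xl : x * l j * x = l j := h.fix hx.1 (k.cen j _ hx.1 hx.2.1)
  have yl : y * l j * y = l j := h.fix hy.1 (k.cen j _ hy.1 hy.2.1)
  have e1 : s * x * y * s * l j * (s * x * y * s)⁻¹ = l j := by
    simp only [mul_inv_rev, h.inv hs, h.inv hx.1, h.inv hy.1]
    calc _ = s * (x * (y * (s * l j * s) * y) * x) * s := by simp only [mul_assoc]
      _ = l j := by
        by_cases ij : j = i
        · rw [ij, h.swap hs ks, h.swap hy.1 ey, ex, ks]
        · have := h.fix hs (h.comm c' hc'.1 _ (k.lR i) _ (k.lR j) s hs (hc'.2.2 i) (hc'.2.2 j).symm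
            (fun e => ij (k.inj e)) (k.cen i _ hc'.1 hc'.2.1).symm (k.cen j _ hc'.1 hc'.2.1)
            (k.cen j _ (k.lR i) (k.lS i)) ks)
          rw [this, yl, xl, this]
  have e2 : s * x * y * s * x * (s * x * y * s)⁻¹ = x * y * x := by
    simp only [mul_inv_rev, h.inv hs, h.inv hx.1, h.inv hy.1]
    calc _ = s * (x * y * (s * x * s) * y * x) * s := by simp only [mul_assoc]
      _ = s * (x * y * x * s * (x * y * x)) * s := by rw [← b1]; simp only [mul_assoc]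
      _ = x * y * x := by rw [b2, h.swap hs rfl]
  have e3 := (e1 ▸ e2 ▸ e'.conj h (s * x * y * s)).conj h x
  rwa [h.inv hx.1, xl, h.swap hx.1 rfl] at e3

theorem Ax.false [Finite G] (h : Ax R) : False := by
  obtain ⟨T⟩ : Nonempty (Sylow 2 G) := inferInstance
  obtain ⟨l, k⟩ := h.tc T
  choose u pu eu using k.all h
  rcases k.tri u pu with ⟨g, gS, gl, i, j, n, c⟩ | ⟨i, hi⟩
  · have p : Pl R T l (g * u i * g⁻¹) := ⟨h.conj _ _ (pu i).1,
      mul_mem (mul_mem gS (pu i).2.1) (inv_mem gS), fun m e => (pu i).2.2 m (by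
        rw [mul_inv_eq_iff_eq_mul, ← (gl m).eq] at e; exact mul_left_cancel e)⟩
    have e := (eu i).conj h g
    rw [(gl i).eq, mul_inv_cancel_right] at e
    exact n (k.uniq h (pu j) (k.same h p (pu j) c e) (eu j))
  obtain ⟨c', p, n, c, -, k1⟩ := k.mate _ (pu i)
  have sw : ∀ j, j ≠ i → u j * u i * u j = c' := fun j hj => by
    have q : Pl R T l (u j * u i * u j) := ⟨h.cj (pu j).1 (pu i).1,
      mul_mem (mul_mem (pu j).2.1 (pu i).2.1) (pu j).2.1, fun m e => (pu i).2.2 m (by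
        rw [← h.swap (pu j).1 e, h.fix (pu j).1 (k.cen m _ (pu j).1 (pu j).2.1)])⟩
    refine (k1 _ q (hi _ (pu j))).resolve_left fun e => hj ?_
    refine k.uniq h (pu i) (k.same h (pu j) (pu i) ?_ (eu j)) (eu i)
    have := congrArg (· * u j) e
    simp only [mul_assoc, h.sq _ (pu j).1, mul_one] at this
    exact this
  obtain ⟨j, m, a1, a2, a3⟩ := (by decide : ∀ i : Fin 3, ∃ j m : Fin 3, j ≠ i ∧ m ≠ i ∧ j ≠ m) i
  exact a3 (k.uniq h (pu m) (k.two h (pu i) p (pu j) (pu m) n c (sw j a1) (sw m a2)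
    (k.same h (pu i) p c (eu i)) (eu j)) (eu m))

end Cfsg.Lib.Five.PL3
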